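import Cfsg.Agent.H6.S4.A4

/-! Subgroups of `SL_4`, odd characteristic, no transvections: the setting. -/

set_option autoImplicit false
set_option linter.unusedSimpArgs false
set_option linter.unusedSectionVars false
set_option linter.unusedVariables false

namespace Cfsg.Agent.H6.L4

open Module Cfsg.Agent.H8.M3
open Cfsg.Agent.H6.S4 (nc T NoTv finSub finOrd T_conj T_inv sq_of_T sqm_of_T)

universe u

variable {k V : Type*} [Field k] [AddCommGroup V] [Module k V] [FiniteDimensional k V]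
  {G : Type u} [Group G] {P : Subgroup (End k V)ˣ} {π : P →* G} {p : ℕ}
  {g g' x y : (End k V)ˣ}

/-- scalar unit -/
def Sc (g : (End k V)ˣ) : Prop := ∃ c : k, g.1 = c • 1

/-- the scalar unit attached to `c ≠ 0` -/
def sc (V : Type*) [AddCommGroup V] [Module k V] (c : k) (h : c ≠ 0) : (End k V)ˣ :=
  ⟨c • 1, c⁻¹ • 1, by simp [smul_smul, h], by simp [smul_smul, h]⟩

/-- the setting: `P` contains all scalars of determinant one -/
structure St (P : Subgroup (End k V)ˣ) {G : Type u} [Group G] (π : P →* G) : Prop where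
  dim : finrank k V = 4
  two : (2 : k) ≠ 0
  fin : Finite P
  det : ∀ g ∈ P, LinearMap.det g.1 = 1
  sca : ∀ (g : (End k V)ˣ) (c : k), g.1 = c • 1 → c ^ 4 = 1 → g ∈ P
  irr : ∀ U : Submodule k V, (∀ g ∈ P, ∀ v ∈ U, g.1 v ∈ U) → U = ⊥ ∨ U = ⊤
  surj : Function.Surjective π
  ker : ∀ g : P, π g = 1 ↔ Sc g.1
  sn : SN G
  tv : NoTv P
  nsd : ∀ B : V →ₗ[k] V →ₗ[k] k,
    (∀ g ∈ P, ∃ c : k, ∀ u v, B (g.1 u) (g.1 v) = c * B u v) → B = 0

/-- no short unipotent element -/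
def NoSh (P : Subgroup (End k V)ˣ) : Prop := ∀ g ∈ P, T g = (2 : k) • 1 → g = 1

/-- short root subgroups have order at most three -/
def Sh3 (P : Subgroup (End k V)ˣ) : Prop :=
  ∀ g ∈ P, ∀ g' ∈ P, T g = (2 : k) • 1 → T g' = (2 : k) • 1 → g ≠ 1 →
    (g.1 - 1) * (g'.1 - 1) = 0 → g' = 1 ∨ g' = g ∨ g' = g⁻¹

/-- the setting after step (C) -/
structure S2 (p : ℕ) (P : Subgroup (End k V)ˣ) {G : Type u} [Group G] (π : P →* G) : Prop
    extends St P π where
  un : (5 ≤ p ∧ NoSh P) ∨ (p = 3 ∧ Sh3 P)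

/-- no homology (and no reflection) -/
def NoHm (P : Subgroup (End k V)ˣ) : Prop :=
  ∀ g ∈ P, ∀ (c : k) (v : V), (∀ x, ∃ d : k, g.1 x - c • x = d • v) → Sc g

/-- quadratic elements have projective order at most three -/
def Quad (P : Subgroup (End k V)ˣ) : Prop :=
  ∀ g ∈ P, ∀ θ : k, T g = θ • 1 → θ = 0 ∨ θ ^ 2 = 1 ∨ θ ^ 2 = 4

/-- quadratic elements of order three -/
def X3 (P : Subgroup (End k V)ˣ) (g : (End k V)ˣ) : Prop :=
  g ∈ P ∧ T g = (-1 : k) • 1 ∧ g ≠ 1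

/-- the possible pairs of quadratic elements of order three: commuting, meeting, natural,
isoclinic of type `D₄` -/
def Pair3 (P : Subgroup (End k V)ˣ) : Prop :=
  ∀ g g', X3 P g → X3 P g' → g * g' = g' * g ∨ T (g * g') = 0 ∨ T (g * g') = 1 ∨
    ((∀ c : k, T (g * g') ≠ c • 1) ∧ (T (g * g') * T (g * g') = T (g * g') + 1 ∨
      T (g * g') * T (g * g') = 1 ∨ T (g * g') * T (g * g') = (2 : k) • T (g * g')))

/-- quadratic elements are involutions -/
def NoS (P : Subgroup (End k V)ˣ) : Prop := ∀ g ∈ P, ∀ θ : k, T g = θ • 1 → Sc g ∨ θ = 0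

/-- the generic case (F) -/
structure Beta (P : Subgroup (End k V)ˣ) {G : Type u} [Group G] (π : P →* G) : Prop
    extends St P π where
  hm : NoHm P
  ns : NoS P

/-- `tr g + tr g⁻¹` -/
noncomputable def ts (g : (End k V)ˣ) : k := LinearMap.trace k V g.1 + LinearMap.trace k V g⁻¹.1

/-- `tr g * tr g⁻¹` -/
noncomputable def tp (g : (End k V)ˣ) : k := LinearMap.trace k V g.1 * LinearMap.trace k V g⁻¹.1

/-- the trace condition on the perfect core -/
def TT (p : ℕ) (P : Subgroup (End k V)ˣ) : Prop :=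
  ∀ g ∈ ⁅P, P⁆, ts g ^ p = ts g ∧ tp g ^ p = tp g

/-- conclusions -/
def CA (p : ℕ) (P : Subgroup (End k V)ˣ) (G : Type u) [Group G] : Prop :=
  Nonempty (G ≃* alternatingGroup (Fin 7)) ∧ p ≠ 7 ∧ TT p P

def CB (p : ℕ) (P : Subgroup (End k V)ˣ) (G : Type u) [Group G] : Prop :=
  (∃ (K : Type) (_ : Field K) (_ : Fintype K), Fintype.card K = 4 ∧ Nonempty (G ≃* Cfsg.PSU 4 K 2)) ∧
    p ≠ 3 ∧ TT p P ∧ ∃ g ∈ ⁅P, P⁆, ts g = -1 ∧ tp g = 7

def CC (p : ℕ) (P : Subgroup (End k V)ˣ) (G : Type u) [Group G] : Prop :=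
  (∃ (K : Type) (_ : Field K) (_ : Fintype K), Fintype.card K = 4 ∧
    Nonempty (G ≃* Matrix.ProjectiveSpecialLinearGroup (Fin 3) K)) ∧
    p = 3 ∧ TT p P ∧ ∃ g ∈ ⁅P, P⁆, ts g = 0 ∧ tp g = 1

def CD (p : ℕ) (G : Type u) [Group G] : Prop := Nat.card G = 168 ∧ p ≠ 7

theorem sc_val (c : k) (h : c ≠ 0) : (sc V c h).1 = c • 1 := rfl

theorem sc_inv_val (c : k) (h : c ≠ 0) : (sc V c h)⁻¹.1 = c⁻¹ • 1 := rfl

theorem Sc.comm (h : Sc g) (x : (End k V)ˣ) : g * x = x * g :=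
  let ⟨c, hc⟩ := h
  Units.ext (by simp only [nc k V, hc])

theorem sc_one : Sc (1 : (End k V)ˣ) := ⟨1, by simp⟩

theorem sc_neg_one : Sc (-1 : (End k V)ˣ) := ⟨-1, by simp⟩

theorem Sc.mul (h : Sc g) (h' : Sc g') : Sc (g * g') :=
  let ⟨c, hc⟩ := h
  let ⟨d, hd⟩ := h'
  ⟨c * d, by simp only [nc k V, hc, hd, smul_smul]⟩

theorem Sc.neg (h : Sc g) : Sc (-g) := by simpa using sc_neg_one.mul h

theorem Sc.conj (h : Sc g) (x : (End k V)ˣ) : x * g * x⁻¹ = g := by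
  rw [← h.comm, mul_inv_cancel_right]

theorem Sc.of_conj (h : Sc (x * g * x⁻¹)) : Sc g := by
  have := h.conj x⁻¹
  rw [← this] at h
  simpa [mul_assoc] using h

namespace St

variable (h : St P π)
include h

theorem nontriv : Nontrivial V := Module.nontrivial_of_finrank_pos (R := k) (by rw [h.dim]; omega)

theorem sc' {a b : k} (e : a • (1 : End k V) = b • 1) : a = b :=
  have := h.nontriv
  smul_left_injective k one_ne_zero e

theorem ne0 {c : k} (e : g.1 = c • 1) : c ≠ 0 := by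
  rintro rfl
  have := h.nontriv
  exact g.ne_zero (by simpa using e)

theorem Sc_inv (hs : Sc g) : Sc g⁻¹ :=
  let ⟨c, hc⟩ := hs
  ⟨c⁻¹, Units.inv_eq_of_mul_eq_one_right (by
    simp only [nc k V, hc, smul_smul, mul_inv_cancel₀ (h.ne0 hc), one_smul])⟩

theorem four (hg : g ∈ P) {c : k} (e : g.1 = c • 1) : c ^ 4 = 1 := by
  have := h.det g hg
  rwa [e, LinearMap.det_smul, h.dim, map_one, mul_one] at this

theorem neg1 : -1 ∈ P := h.sca _ (-1) (by simp) (by ring)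

theorem neg (hg : g ∈ P) : -g ∈ P := by simpa using P.mul_mem h.neg1 hg

theorem sc_mem {c : k} (h0 : c ≠ 0) (e : c ^ 4 = 1) : sc V c h0 ∈ P := h.sca _ c rfl e

theorem neg_ne_one : (-1 : (End k V)ˣ) ≠ 1 := fun e => h.two (by
  have := h.sc' (a := -1) (b := 1) (by simpa using congrArg Units.val e)
  linear_combination -this)

theorem finG : Finite G := have := h.fin; Finite.of_surjective π h.surj

theorem eq_iff {a b : P} : π a = π b ↔ ∃ c : k, a.1.1 = c • b.1.1 := by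
  rw [← mul_inv_eq_one, ← map_inv, ← map_mul, h.ker]
  refine exists_congr fun c => ?_
  simp only [Subgroup.coe_mul, Subgroup.coe_inv, Units.val_mul, Units.mul_inv_eq_iff_eq_mul,
    smul_mul_assoc, one_mul]

theorem normal (N : Subgroup (End k V)ˣ) (hn : ∀ g ∈ P, ∀ x ∈ P, x ∈ N → g * x * g⁻¹ ∈ N)
    (h1 : ∀ g ∈ P, Sc g → g ∈ N) : (∀ x ∈ P, x ∈ N → Sc x) ∨ P ≤ N := by
  have : (N.subgroupOf P).Normal := ⟨fun x hx g => hn g g.2 x x.2 hx⟩
  rcases h.sn.normal_cases ((N.subgroupOf P).map π) (this.map π h.surj) with e | e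
  · exact Or.inl fun x hx hN => (h.ker ⟨x, hx⟩).1 (by
      rw [← Subgroup.mem_bot, ← e]; exact ⟨_, hN, rfl⟩)
  · refine Or.inr fun g hg => ?_
    obtain ⟨x, hx, e'⟩ : π ⟨g, hg⟩ ∈ (N.subgroupOf P).map π := e ▸ Subgroup.mem_top _
    have : π (⟨g, hg⟩ * x⁻¹) = 1 := by rw [map_mul, map_inv, e', mul_inv_cancel]
    simpa using N.mul_mem (h1 _ (⟨g, hg⟩ * x⁻¹ : P).2 ((h.ker _).1 this)) hx

theorem gen {X : Set (End k V)ˣ} (hX : ∀ x ∈ X, x ∈ P) (hc : ∀ g ∈ P, ∀ x ∈ X, g * x * g⁻¹ ∈ X)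
    (hx : x ∈ X) (h1 : ¬ Sc x) (M : Subgroup (End k V)ˣ)
    (hM : ∀ g ∈ P, Sc g → g ∈ M) (hXM : ∀ x ∈ X, x ∈ M) : P ≤ M := by
  have hle : Subgroup.closure ({g | g ∈ P ∧ Sc g} ∪ X) ≤ M := (Subgroup.closure_le _).2 (by
    rintro y (hy | hy)
    exacts [hM y hy.1 hy.2, hXM y hy])
  refine le_trans ((h.normal _ (fun g hg y _ hy => ?_)
    fun g hg hs => Subgroup.subset_closure (Or.inl ⟨hg, hs⟩)).resolve_left fun e => ?_) hle
  · clear * - hy hc hg
    induction hy using Subgroup.closure_induction with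
    | mem y hy =>
      rcases hy with hy | hy
      · rw [hy.2.conj]; exact Subgroup.subset_closure (Or.inl hy)
      · exact Subgroup.subset_closure (Or.inr (hc g hg y hy))
    | one => simp
    | mul a b _ _ ha hb => simpa [mul_assoc] using Subgroup.mul_mem _ ha hb
    | inv a _ ha => simpa [mul_assoc] using Subgroup.inv_mem _ ha
  · exact h1 (e x (hX x hx) (Subgroup.subset_closure (Or.inr hx)))

theorem ind {X : Set (End k V)ˣ} (hX : ∀ x ∈ X, x ∈ P) (hc : ∀ g ∈ P, ∀ x ∈ X, g * x * g⁻¹ ∈ X)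
    (hx : x ∈ X) (h1 : ¬ Sc x) (R : (End k V)ˣ → Prop) (rs : ∀ g ∈ P, Sc g → R g)
    (rm : ∀ a ∈ P, ∀ b ∈ P, R a → R b → R (a * b)) (rX : ∀ x ∈ X, R x) :
    ∀ g ∈ P, R g := fun g hg =>
  have := h.fin
  (h.gen hX hc hx h1 (finSub P R (rs 1 P.one_mem sc_one) rm) (fun g hg hs => ⟨hg, rs g hg hs⟩)
    (fun x hx => ⟨hX x hx, rX x hx⟩) hg).2

theorem central (hx : x ∈ P) (e : ∀ g ∈ P, ∃ c : k, g.1 * x.1 = c • (x.1 * g.1)) : Sc x :=
  (h.ker ⟨x, hx⟩).1 (h.sn.center_eq fun g => by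
    obtain ⟨g, rfl⟩ := h.surj g
    rw [← map_mul, ← map_mul, h.eq_iff]
    exact e g g.2)

theorem comm_class {X : Set (End k V)ˣ} (hX : ∀ x ∈ X, x ∈ P)
    (hc : ∀ g ∈ P, ∀ x ∈ X, g * x * g⁻¹ ∈ X)
    (e : ∀ x ∈ X, ∀ y ∈ X, ∃ c : k, x.1 * y.1 = c • (y.1 * x.1)) (hx : x ∈ X) : Sc x := by
  by_contra hh
  refine hh (h.central (hX x hx) (h.ind hX hc hx hh _ ?_ ?_ fun y hy => e y hy x hx))
  · exact fun g _ hs => ⟨1, by rw [one_smul]; exact congrArg Units.val (hs.comm x)⟩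
  · rintro a - b - ⟨c, ha⟩ ⟨d, hb⟩
    refine ⟨d * c, ?_⟩
    rw [Units.val_mul, mul_assoc, hb, mul_smul_comm, ← mul_assoc, ha, smul_mul_assoc, smul_smul,
      mul_assoc]

theorem mulf (f : P → k) (h0 : ∀ g, f g ≠ 0) (hm : ∀ a b, f (a * b) = f a * f b)
    (hn : ∀ g : P, Sc g.1 → f g = 1) (g : P) : f g = 1 := by
  let χ : P →* kˣ := MonoidHom.mk' (fun g => Units.mk0 (f g) (h0 g)) fun a b => Units.ext (hm a b)
  have hk : π.ker ≤ χ.ker := fun x hx => Units.ext (hn x ((h.ker x).1 hx))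
  have := h.sn.hom_eq_one (π.liftOfSurjective h.surj ⟨χ, hk⟩) (π g)
  rw [MonoidHom.liftOfRightInverse_comp_apply] at this
  exact congrArg Units.val this

theorem schur [IsAlgClosed k] {X : End k V} (hX : ∀ g ∈ P, g.1 * X = X * g.1) :
    ∃ c : k, X = c • 1 := by
  have := h.nontriv
  obtain ⟨c, hc⟩ := End.exists_eigenvalue X
  refine ⟨c, LinearMap.ext fun v => ?_⟩
  have := (h.irr (X.eigenspace c) fun g hg v hv => by
    rw [End.mem_eigenspace_iff] at hv ⊢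
    rw [← End.mul_apply, ← hX g hg, End.mul_apply, hv, map_smul]).resolve_left hc
  exact End.mem_eigenspace_iff.1 (this ▸ Submodule.mem_top)

theorem semi [IsAlgClosed k] {X : End k V} (hX : ∀ g ∈ P, ∃ c : k, g.1 * X * g⁻¹.1 = c • X) :
    ∃ c : k, X = c • 1 := by
  by_cases h0 : X = 0
  · exact ⟨0, by simp [h0]⟩
  choose! f hf using hX
  have := h.mulf (fun g => f g) (fun g e => h0 (by
      have := hf g g.2
      rw [e, zero_smul] at this
      simpa using this)) (fun a b => smul_left_injective k h0 (by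
      simp only
      rw [← hf _ (a * b).2, mul_comm, mul_smul, ← hf a a.2, ← smul_mul_assoc, ← mul_smul_comm,
        ← hf b b.2]
      simp only [Subgroup.coe_mul, nc k V])) (fun g ⟨c, hc⟩ => smul_left_injective k h0 (by
      simp only
      rw [← hf _ g.2, one_smul, Units.mul_inv_eq_iff_eq_mul, hc]; simp))
  refine h.schur fun g hg => ?_
  have e := hf g hg
  rw [this ⟨g, hg⟩, one_smul] at e
  rw [← Units.mul_inv_eq_iff_eq_mul, e]

end St

theorem X3.conj (hx : X3 P g') (hg : g ∈ P) : X3 P (g * g' * g⁻¹) :=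
  ⟨P.mul_mem (P.mul_mem hg hx.1) (P.inv_mem hg), by rw [T_conj, hx.2.1]; simp only [nc k V],
    fun e => hx.2.2 (by simpa [mul_inv_eq_one] using e)⟩

theorem X3.inv (hx : X3 P g) : X3 P g⁻¹ :=
  ⟨P.inv_mem hx.1, by rw [T_inv, hx.2.1], fun e => hx.2.2 (inv_eq_one.1 e)⟩

theorem X3.cube (hx : X3 P g) : g ^ 3 = 1 := Units.ext (by
  simp only [pow_succ, pow_zero, nc k V, sq_of_T hx.2.1, sqm_of_T hx.2.1]; module)

theorem X3.nsc (h : St P π) (hx : X3 P g) : ¬ Sc g := by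
  rintro ⟨c, hc⟩
  have h4 := h.four hx.1 hc
  have h3 : c ^ 3 = 1 := h.sc' (by
    have := congrArg Units.val hx.cube
    simp only [pow_succ, pow_zero, nc k V, hc, smul_smul] at this ⊢
    rw [one_smul, ← this]; congr 1; ring)
  have : c = 1 := by linear_combination h4 - c * h3
  exact hx.2.2 (Units.ext (by simp [hc, this]))

end Cfsg.Agent.H6.L4
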