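import Cfsg.Agent.H6.L4.If
import Cfsg.Agent.H6.S4.B5
import Cfsg.Agent.H2.L4c

/-! Unipotent elements and reducible pairs of quadratic elements. -/

set_option autoImplicit false
set_option linter.unusedSimpArgs false
set_option linter.unusedSectionVars false
set_option linter.unusedVariables false

namespace Cfsg.Agent.H6.L4

open Module Cfsg.Agent.H8.M3
open Cfsg.Agent.H6.S4 hiding St S2 X3 Quad Pair3 Beta

universe u

variable {k V : Type*} [Field k] [AddCommGroup V] [Module k V] [FiniteDimensional k V]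
  {G : Type u} [Group G] {P : Subgroup (End k V)ˣ} {π : P →* G} {p : ℕ}
  {g g' x y u : (End k V)ˣ} {θ ρ : k} {N N' : End k V}

theorem nil_of_eig [IsAlgClosed k] (h : ∀ (c : k) (v : V), v ≠ 0 → N v = c • v → c = 0) :
    IsNilpotent N := by
  have e := End.iSup_maxGenEigenspace_eq_top N
  have : N.maxGenEigenspace 0 = ⊤ := by
    refine top_le_iff.1 (e ▸ iSup_le fun μ => ?_)
    by_cases h0 : μ = 0
    · rw [h0]
    · have : N.maxGenEigenspace μ = ⊥ := by
        by_contra hh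
        have : N.HasEigenvalue μ := by
          rw [End.maxGenEigenspace_eq_genEigenspace_finrank] at hh
          exact End.hasEigenvalue_of_hasGenEigenvalue hh
        obtain ⟨v, hv⟩ := this.exists_hasEigenvector
        exact h0 (h μ v hv.2 hv.apply_eq_smul)
      simp [this]
  refine ⟨finrank k V, LinearMap.ext fun v => ?_⟩
  have hv : v ∈ N.maxGenEigenspace 0 := this ▸ Submodule.mem_top
  rw [End.maxGenEigenspace_eq_genEigenspace_finrank, End.mem_genEigenspace_nat] at hv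
  simpa using hv

theorem rk1 (h : finrank k (LinearMap.range N) ≤ 1) : ∃ v, ∀ x, ∃ c : k, N x = c • v := by
  obtain ⟨v, hv⟩ := finrank_le_one_iff.1 h
  exact ⟨v, fun x => let ⟨c, hc⟩ := hv ⟨N x, x, rfl⟩; ⟨c, (congrArg Subtype.val hc).symm⟩⟩

theorem rk_step (h : IsNilpotent N) (M : End k V) (hM : N * M = M * N) :
    finrank k (LinearMap.range (N * M)) < finrank k (LinearMap.range M) ∨ M = 0 := by
  by_contra! hh
  have le : LinearMap.range (N * M) ≤ LinearMap.range M := by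
    rintro _ ⟨v, rfl⟩; exact ⟨N v, by rw [hM]; rfl⟩
  have e := Submodule.eq_of_le_of_finrank_le le hh.1
  obtain ⟨n, hn⟩ := h
  have : ∀ j : ℕ, ∀ v, ∃ w, M v = (N ^ j) (M w) := fun j => by
    induction j with
    | zero => exact fun v => ⟨v, rfl⟩
    | succ j ih =>
      intro v
      obtain ⟨w, hw⟩ := ih v
      obtain ⟨z, hz⟩ : M w ∈ LinearMap.range (N * M) := e ▸ ⟨w, rfl⟩
      exact ⟨z, by rw [hw, ← hz, pow_succ]; rfl⟩
  exact hh.2 (LinearMap.ext fun v => by obtain ⟨w, hw⟩ := this n v; simp [hw, hn])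

namespace St

variable (h : St P π)
include h

theorem h2sc : H2.L4.Sc P := by
  refine ⟨h.two, h.dim, h.fin, h.irr, fun N hN hn ⟨x, hx, hs⟩ g hg => ?_, fun g hg v _ e => h.tv g hg v e⟩
  have := h.fin
  refine h.ind (X := N) (fun x hx => hN hx) hn hx (fun ⟨c, hc⟩ => hs c hc)
    (fun g => ∃ x ∈ N, ∃ c : k, g.1 = c • x.1) ?_ ?_ (fun x hx => ⟨x, hx, 1, by simp⟩) g hg
  · exact fun g _ ⟨c, hc⟩ => ⟨1, N.one_mem, c, hc⟩
  · rintro a - b - ⟨x, hx, c, e⟩ ⟨y, hy, d, e'⟩
    exact ⟨x * y, N.mul_mem hx hy, c * d, by simp only [nc k V, e, e', smul_smul]⟩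

theorem rk4 (M : End k V) : finrank k (LinearMap.range M) ≤ 4 := h.dim ▸ Submodule.finrank_le _

theorem nil4 (hN : IsNilpotent N) : N * N * N * N = 0 := by
  have a0 := h.rk4 1
  rcases rk_step hN 1 (by simp) with a1 | a1
  swap; · have := h.nontriv; exact absurd a1 one_ne_zero
  rw [mul_one] at a1
  rcases rk_step hN N rfl with a2 | a2
  swap; · simp [a2]
  rcases rk_step hN (N * N) (mul_assoc _ _ _).symm with a3 | a3
  swap; · simp [a3]
  rcases rk_step hN (N * (N * N)) (by simp only [mul_assoc]) with a4 | a4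
  swap; · rw [mul_assoc N N N, a4, zero_mul]
  rw [mul_assoc, mul_assoc]
  exact LinearMap.range_eq_bot.1 (Submodule.finrank_eq_zero.1 (by omega))

theorem rk_cube (hN : IsNilpotent N) : ∃ v, ∀ x, ∃ c : k, (N * N * N) x = c • v := by
  refine rk1 ?_
  have a0 := h.rk4 1
  rcases rk_step hN 1 (by simp) with a1 | a1
  swap; · have := h.nontriv; exact absurd a1 one_ne_zero
  rw [mul_one] at a1
  rcases rk_step hN N rfl with a2 | a2
  swap; · rw [a2, mul_zero, LinearMap.range_zero, finrank_bot]; omega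
  rcases rk_step hN (N * N) (mul_assoc _ _ _).symm with a3 | a3
  swap; · rw [a3, zero_mul, LinearMap.range_zero, finrank_bot]; omega
  rw [mul_assoc]; omega

theorem rk_sq (e : N * N * N = 0) : ∃ v, ∀ x, ∃ c : k, (N * N) x = c • v := by
  refine rk1 ?_
  have hN : IsNilpotent N := ⟨3, by rw [pow_three', e]⟩
  rcases rk_step hN N rfl with a2 | a2
  swap; · rw [a2, mul_zero, LinearMap.range_zero, finrank_bot]; omega
  have a1 := LinearMap.finrank_range_add_finrank_ker N
  have a3 := Submodule.finrank_mono (show LinearMap.range (N * N) ≤ LinearMap.ker N by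
    rintro _ ⟨v, rfl⟩; exact LinearMap.congr_fun (mul_assoc N N N ▸ e) v)
  have := h.dim
  omega

theorem tv3 (hg : g ∈ P) {K : Submodule k V} (hK : 3 ≤ finrank k K) (e : ∀ v ∈ K, g.1 v = v) :
    g = 1 := by
  have a1 := LinearMap.finrank_range_add_finrank_ker (g.1 - 1)
  have a2 := Submodule.finrank_mono (show K ≤ LinearMap.ker (g.1 - 1) from fun v hv => by simp [e v hv])
  have := h.dim
  obtain ⟨v, hv⟩ := rk1 (N := g.1 - 1) (by omega)
  exact h.tv g hg v hv

theorem four_ne : (4 : k) ≠ 0 := fun e => h.two (pow_eq_zero_iff two_ne_zero |>.1 (by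
  linear_combination e))

theorem ppart [Fact p.Prime] (hg : g ∈ P) : ∃ r a : ℕ, ¬ p ∣ r ∧ g ^ (r * p ^ a) = 1 := by
  have := h.fin
  obtain ⟨a, r, h1, h2⟩ := Nat.exists_eq_pow_mul_and_not_dvd (finOrd hg).orderOf_pos.ne' p
    (Fact.out : p.Prime).ne_one
  exact ⟨r, a, h1, by rw [mul_comm, ← h2, pow_orderOf_eq_one]⟩

theorem sh (hg : g ∈ P) (e : T g = (2 : k) • 1) (g1 : g ≠ 1) : H2.L4.Sh P (g.1 - 1) :=
  ⟨⟨⟨g, hg, by simp⟩, T_two_iff.1 e, T_two_iff.1 e⟩, fun e => g1 (Units.ext (sub_eq_zero.1 e))⟩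

/-- short elements with a common fixed vector on which the anticommutator lands commute -/
theorem sh_comm (hN : H2.L4.Sh P N) (hN' : H2.L4.Sh P N') {x : V} (h1 : N x = 0) (h2 : N' x = 0)
    (x0 : x ≠ 0) (e : ∀ z, ∃ t : k, N (N' z) + N' (N z) = t • x) : N * N' = N' * N := by
  have c := h.h2sc
  by_cases hL : ∀ v, N v = 0 → N' v = 0
  · have := H2.L4.Aa.of_ker c hN hN' hL
    rw [this.2.1, this.2.2]
  push Not at hL
  obtain ⟨v, hv, hv'⟩ := hL
  have hxv : ∀ t : k, v ≠ t • x := fun t e => hv' (by simp [e, h2])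
  have key : ∀ w, N w = 0 → N' w = 0 → ∃ t : k, w = t • x := fun w a b => by
    obtain ⟨s, t, e⟩ := hN.span c h1 hv x0 hxv a
    rw [e] at b
    simp only [map_add, map_smul, h2, smul_zero, zero_add, smul_eq_zero, hv', or_false] at b
    exact ⟨s, by simp [e, b]⟩
  refine H2.L4.comm1 c hN hN' h1 h2 (fun z => ?_) fun z => ?_
  · obtain ⟨t, ht⟩ := e z
    refine key _ (hN.app _) ?_
    have := congrArg N' ht
    simpa [hN'.app, h2] using this
  · obtain ⟨t, ht⟩ := e z
    refine key _ ?_ (hN'.app _)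
    have := congrArg N ht
    simpa [hN.app, h1] using this

theorem anti0 (hN : H2.L4.Sh P N) (hN' : H2.L4.Sh P N') (e : N * N' + N' * N = 0) : N * N' = 0 := by
  by_contra! hh
  obtain ⟨z, hz⟩ : ∃ z, N (N' z) ≠ 0 := by
    by_contra! h0; exact hh (LinearMap.ext h0)
  have e' : ∀ z, N (N' z) + N' (N z) = 0 := fun z => LinearMap.congr_fun e z
  have := h.sh_comm hN hN' (hN.app (N' z)) (by
    rw [eq_neg_of_add_eq_zero_left (e' z), map_neg, hN'.app, neg_zero]) hz fun z => ⟨0, by simp [e']⟩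
  rw [← this, ← two_smul k, smul_eq_zero] at e
  exact hh (e.resolve_left h.two)

variable [Fact p.Prime] [CharP k p]

theorem sub_pow_p (g : (End k V)ˣ) (a : ℕ) : (g.1 - 1) ^ p ^ a = (g ^ p ^ a).1 - 1 := by
  have := h.nontriv
  have := charP_of_injective_algebraMap (algebraMap k (End k V)).injective p
  rw [sub_pow_char_pow_of_commute _ _ (Commute.one_right _), one_pow, Units.val_pow_eq_pow_val]

theorem un_of_pow {a : ℕ} (e : g ^ p ^ a = 1) : Un g := ⟨p ^ a, by rw [h.sub_pow_p, e]; simp⟩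

theorem upart (p : ℕ) [Fact p.Prime] [CharP k p] (hg : g ∈ P) : ∃ r : ℕ, (r : k) ≠ 0 ∧ Un (g ^ r) :=
  let ⟨r, a, h1, h2⟩ := h.ppart (p := p) hg
  ⟨r, cast_ne h1, h.un_of_pow (p := p) (a := a) (by rw [← pow_mul, h2])⟩

theorem s2 [IsAlgClosed k] : S2 p P π := ⟨h, by
  rcases H2.L4.five_or (k := k) (p := p) h.two with hp | hp
  · refine Or.inr ⟨hp, fun g hg g' hg' e e' g1 e1 => ?_⟩
    by_cases g1' : g' = 1
    · exact Or.inl g1'
    refine H2.L4.un3 h.h2sc hp hg (T_two_iff.1 e) g1 hg' ?_ e1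
    have a := h.sh hg e g1
    have b := h.sh hg' e' g1'
    exact (H2.L4.Aa.of_ker h.h2sc b a fun v hv => by
      obtain ⟨z, rfl⟩ := b.rg h.h2sc hv
      exact LinearMap.congr_fun e1 z).2.2
  · exact Or.inl ⟨hp, fun g hg e => H2.L4.un5 h.h2sc hp hg (T_two_iff.1 e)⟩⟩

theorem cube3 (hp : p = 3) (hg : g ∈ P) (hu : Un g) : (g.1 - 1) * (g.1 - 1) * (g.1 - 1) = 0 := by
  subst hp
  have e := h.sub_pow_p (p := 3) g 1
  rw [pow_one, pow_three'] at e
  obtain ⟨v, hv⟩ := h.rk_cube hu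
  rw [e] at hv ⊢
  rw [h.tv _ (P.pow_mem hg 3) v hv]; simp

end St

variable [Fact p.Prime] [CharP k p] [IsAlgClosed k]

theorem S2.p3 (h : S2 p P π) (hg : g ∈ P) (e : T g = (2 : k) • 1) (h1 : g ≠ 1) : p = 3 :=
  (h.un.resolve_left fun h' => h1 (h'.2 g hg e)).1

theorem S2.sh3 (h : S2 p P π) (hg : g ∈ P) (hg' : g' ∈ P) (e : T g = (2 : k) • 1)
    (e' : T g' = (2 : k) • 1) (h1 : g ≠ 1) (e0 : (g.1 - 1) * (g'.1 - 1) = 0) :
    g' = 1 ∨ g' = g ∨ g' = g⁻¹ :=
  (h.un.resolve_left fun h' => h1 (h'.2 g hg e)).2 g hg g' hg' e e' h1 e0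

/-- a short element whose root group is normalised by a quadratic element commutes with it -/
theorem S2.sh_norm (h : S2 p P π) (hu : u ∈ P) (hg : g ∈ P) (eu : T u = (2 : k) • 1)
    (e : T g = θ • 1) (θ0 : θ ≠ 0) (e0 : (u.1 - 1) * g.1 * (u.1 - 1) = 0) :
    g.1 * (u.1 - 1) = (u.1 - 1) * g.1 := by
  by_cases u1 : u = 1
  · simp [u1]
  have e1 : (g * u * g⁻¹).1 - 1 = g.1 * (u.1 - 1) * g⁻¹.1 := by simp only [nc k V]
  rcases h.sh3 hu (T_conj_mem hg ⟨hu, eu⟩).1 eu (T_conj_mem hg ⟨hu, eu⟩).2 u1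
    (by rw [e1, ← mul_assoc, ← mul_assoc, e0, zero_mul]) with f | f | f
  · exact absurd (by simpa [mul_inv_eq_one] using f) u1
  · rw [f] at e1
    nth_rw 2 [e1]; simp only [nc k V]
  · exfalso
    rw [f, inv_of_T eu] at e1
    have a : g.1 * (u.1 - 1) = -((u.1 - 1) * g.1) := by
      have := congrArg (· * g.1) e1
      simp only [nc k V] at this ⊢
      linear_combination (norm := module) -this
    have b : g⁻¹.1 * (u.1 - 1) = -((u.1 - 1) * g⁻¹.1) := by
      have := congrArg (fun X => g⁻¹.1 * X * g⁻¹.1) a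
      simp only [nc k V] at this ⊢
      linear_combination (norm := module) this
    rw [inv_of_T e] at b
    have : (2 * θ) • (u.1 - 1) = 0 := by
      simp only [nc k V] at a b ⊢
      linear_combination (norm := module) a + b
    exact u1 (Units.ext (sub_eq_zero.1 ((smul_eq_zero.1 this).resolve_left (mul_ne_zero h.two θ0))))

theorem nil_sq (h : IsNilpotent (N * N)) : IsNilpotent N :=
  let ⟨n, hn⟩ := h
  ⟨2 * n, by rw [pow_mul, sq, hn]⟩

theorem un_of_T (h : IsNilpotent (T u - (2 : k) • 1)) : Un u := by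
  refine nil_sq ?_
  have c : Commute (T u - (2 : k) • 1) u.1 := by
    simp only [Commute, SemiconjBy, nc k V, T_comm]
  have := c.isNilpotent_mul_right h
  rwa [T_sub, Units.inv_mul_cancel_right] at this

theorem nil_quad (h2 : (2 : k) ≠ 0) {c : End k V} {a b : k}
    (H : ∀ (ρ : k) (v : V), v ≠ 0 → c v = ρ • v → ρ = a ∨ ρ = b) :
    IsNilpotent ((c - a • 1) * (c - b • 1)) := nil_of_eig fun μ v v0 e => by
  obtain ⟨r, hr⟩ := H2.L4.root2 h2 (a + b) (a * b - μ)
  have e1 : c (c v - (a + b - r) • v) = r • (c v - (a + b - r) • v) := by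
    simp only [End.mul_apply, LinearMap.sub_apply, LinearMap.smul_apply, End.one_apply, map_sub,
      map_smul] at e ⊢
    linear_combination (norm := module) e - hr • v
  by_cases h0 : c v - (a + b - r) • v = 0
  · rcases H _ v v0 (sub_eq_zero.1 h0) with f | f
    · linear_combination -hr + (a - r) * f
    · linear_combination -hr + (b - r) * f
  · rcases H _ _ h0 e1 with f | f
    · linear_combination -hr + (r - b) * f
    · linear_combination -hr + (r - a) * f

theorem S2.red2 (h : S2 p P π) (hg : g ∈ P) (hg' : g' ∈ P) (e : T g = (2 : k) • 1)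
    (e' : T g' = (2 : k) • 1) (H : ∀ (ρ : k) (v : V), v ≠ 0 → T (g * g') v = ρ • v → ρ = 2) :
    g * g' = g' * g := by
  by_cases g1 : g = 1
  · simp [g1]
  by_cases g1' : g' = 1
  · simp [g1']
  have a := h.sh hg e g1
  have b := h.sh hg' e' g1'
  have hs : T (g * g') - (2 : k) • 1 = (g.1 - 1) * (g'.1 - 1) + (g'.1 - 1) * (g.1 - 1) := by
    simp only [T, nc k V, inv_of_T e, inv_of_T e']; module
  have hn : IsNilpotent (T (g * g') - (2 : k) • 1) := nil_of_eig fun μ v v0 f => by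
    have := H (μ + 2) v v0 (by
      simp only [LinearMap.sub_apply, LinearMap.smul_apply, End.one_apply] at f
      linear_combination (norm := module) f)
    linear_combination this
  obtain ⟨v, hv⟩ := h.rk_sq (h.cube3 (h.p3 hg e g1) (P.mul_mem hg hg') (un_of_T hn))
  have hv' : ∀ z, ∃ t : k, (T (g * g') - (2 : k) • 1) z = t • v := fun z => by
    rw [T_sub]; exact hv _
  have fin : (g.1 - 1) * (g'.1 - 1) = (g'.1 - 1) * (g.1 - 1) → g * g' = g' * g := fun f =>
    Units.ext (by simp only [nc k V] at f ⊢; linear_combination (norm := module) f)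
  rw [hs] at hv'
  have sa := a.sq
  have sb := b.sq
  generalize g.1 - 1 = N at *
  generalize g'.1 - 1 = N' at *
  by_cases s0 : N * N' + N' * N = 0
  · exact fin (by rw [h.anti0 a b s0, h.anti0 b a (by rw [add_comm, s0])])
  obtain ⟨z, hz⟩ : ∃ z, (N * N' + N' * N) z ≠ 0 := by
    by_contra! h0; exact s0 (LinearMap.ext h0)
  obtain ⟨t, ht⟩ := hv' z
  have t0 : t ≠ 0 := by rintro rfl; simp [ht] at hz
  have v0 : v ≠ 0 := by rintro rfl; simp [ht] at hz
  have key : ∀ M : End k V, M * M = 0 → M * (N * N' + N' * N) = (N * N' + N' * N) * M → M v = 0 :=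
    fun M m1 m2 => by
    obtain ⟨s, hs⟩ := hv' (M z)
    have e1 : t • M v = s • v := by rw [← hs, ← End.mul_apply, ← m2, End.mul_apply, ht, map_smul]
    have e2 := congrArg M e1
    rw [map_smul, map_smul, ← End.mul_apply, m1, LinearMap.zero_apply, smul_zero, eq_comm,
      smul_eq_zero] at e2
    refine e2.elim (fun s0 => ?_) id
    simpa [s0, t0] using e1
  refine fin (h.sh_comm a b (key N sa ?_) (key N' sb ?_) v0 hv')
  · simp only [mul_add, add_mul, ← mul_assoc N N, mul_assoc N' N N, sa, zero_mul, mul_zero, mul_assoc]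
    simp
  · simp only [mul_add, add_mul, ← mul_assoc N' N', mul_assoc N N' N', sb, zero_mul, mul_zero,
      mul_assoc]
    simp

theorem S2.red_u (h : S2 p P π) (hg : g ∈ P) (hu : u ∈ P) (e : T g = θ • 1) (e' : T (g * u) = θ • 1)
    (θ0 : θ ≠ 0) (h4 : θ ^ 2 ≠ 4) (un : Un u)
    (c : (T u - (2 : k) • 1) * g.1 = g.1 * (T u - (2 : k) • 1)) : u = 1 := by
  have d4 : θ ^ 2 - 4 ≠ 0 := sub_ne_zero.2 h4
  have r0 : g.1 * u.1 + u⁻¹.1 * g⁻¹.1 = g.1 + g⁻¹.1 := by
    have := e'.trans e.symm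
    simpa only [T, nc k V] using this
  have n4 := h.nil4 un
  have c3 : p = 3 → (u.1 - 1) * (u.1 - 1) * (u.1 - 1) = 0 := fun hp => h.cube3 hp hu un
  have hn := T_sub u
  obtain ⟨n, hnT⟩ : ∃ n, T u - (2 : k) • 1 = n := ⟨_, rfl⟩
  rw [hnT] at hn c
  obtain ⟨N, hN⟩ : ∃ N, u.1 = 1 + N := ⟨u.1 - 1, by abel⟩
  rw [hN, add_sub_cancel_left] at n4 c3 hn
  have ui : u⁻¹.1 = 1 - N + N * N - N * N * N := Units.inv_eq_of_mul_eq_one_right (by
    rw [hN]; simp only [mul_assoc] at n4; simp only [nc k V, n4]; abel)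
  simp only [mul_assoc] at n4
  have n4' : ∀ X, N * (N * (N * (N * X))) = 0 := fun X => by
    simpa only [nc k V] using congrArg (· * X) n4
  obtain ⟨A, hA⟩ : ∃ A, A = N - N * N + N * (N * N) := ⟨_, rfl⟩
  have gi := inv_of_T e
  have r1 : g.1 * N = A * g⁻¹.1 := by
    rw [hN, ui] at r0; rw [hA]; simp only [nc k V] at r0 ⊢
    linear_combination (norm := module) r0
  have r2 : N * g.1 = g⁻¹.1 * A := by
    have := congrArg (fun X => g⁻¹.1 * X * g.1) r1
    simpa only [nc k V] using this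
  have hn' : n = N * N - N * (N * N) := by rw [hn, ui]; simp only [nc k V, n4]; abel
  have nA : N * A = n := by rw [hn', hA]; simp only [nc k V, n4]; abel
  have An : A * N = n := by rw [hn', hA]; simp only [nc k V, n4]; abel
  have cN : n * N = N * n := by rw [hn']; simp only [nc k V]
  have nn : n * n = 0 := by rw [hn']; simp only [nc k V, n4, n4']; abel
  have ci : n * g⁻¹.1 = g⁻¹.1 * n := comm_inv c
  -- the commutator of `u` with its conjugate
  have F : N * (g.1 * N * g⁻¹.1) - (g.1 * N * g⁻¹.1) * N =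
      n * (θ • (u⁻¹.1 * g⁻¹.1 - g.1)) := by
    have a1 : g⁻¹.1 * g⁻¹.1 = θ • g⁻¹.1 - 1 := sq_of_T (by rw [T_inv, e])
    have a2 : g⁻¹.1 * N = θ • N - A * g⁻¹.1 := by rw [← r1, gi]; simp only [nc k V]
    have a3 : A * A = n * u⁻¹.1 := by rw [hn', hA, ui]; simp only [nc k V, n4, n4']; abel
    have a4 : A * (g⁻¹.1 * A) = n * g.1 := by rw [← r2, ← mul_assoc, An]
    have a5 : N * g⁻¹.1 = θ • N - g⁻¹.1 * A := by rw [← r2, gi]; simp only [nc k V]
    have a6 : N * (A * g⁻¹.1 * g⁻¹.1) = A * (N * (g⁻¹.1 * g⁻¹.1)) := by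
      rw [mul_assoc A, ← mul_assoc N, nA, ← mul_assoc A, An]
    rw [r1, a6, mul_assoc A, mul_assoc A, a1]
    have a7 : A * (N * g⁻¹.1) - A * (g⁻¹.1 * N) = A * A * g⁻¹.1 - A * (g⁻¹.1 * A) := by
      rw [a2, a5]; simp only [nc k V]; abel
    rw [a3, a4] at a7
    simp only [nc k V] at a7 ⊢
    linear_combination (norm := module) θ • a7
  set u' := g * u * g⁻¹ with hu'
  have hu'P : u' ∈ P := P.mul_mem (P.mul_mem hg hu) (P.inv_mem hg)
  have eu' : u'.1 = 1 + g.1 * N * g⁻¹.1 := by simp only [hu', nc k V, hN]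
  have cu : n * u.1 = u.1 * n := by simp only [hN, nc k V, cN]
  have cu' : n * u'.1 = u'.1 * n := by
    simp only [hu', Units.val_mul]
    exact ((Commute.mul_right c cu).mul_right ci).eq
  set w := u * u' * u⁻¹ * u'⁻¹ with hw
  obtain ⟨Y, hY⟩ : ∃ Y, Y = θ • (u⁻¹.1 * g⁻¹.1 - g.1) * (u⁻¹.1 * u'⁻¹.1) := ⟨_, rfl⟩
  have cY : n * Y = Y * n := by
    have b1 := comm_inv cu
    have b2 := comm_inv cu'
    have m : ∀ {X : End k V}, n * X = X * n → ∀ Z, n * (X * Z) = X * (n * Z) := fun e Z => by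
      rw [← mul_assoc, e, mul_assoc]
    simp only [hY, nc k V, m b1, m b2, m c, m ci, b2]
  have ew : w.1 - 1 = n * Y := by
    have : w.1 - 1 = (u.1 * u'.1 - u'.1 * u.1) * (u⁻¹.1 * u'⁻¹.1) := by simp only [hw, nc k V]
    rw [this, hY, ← mul_assoc n, ← F, eu', hN]
    congr 1
    simp only [nc k V]; abel
  have wP : w ∈ P := P.mul_mem (P.mul_mem (P.mul_mem hu hu'P) (P.inv_mem hu)) (P.inv_mem hu'P)
  have w1 : w = 1 := by
    by_contra w1
    have hp := h.p3 wP (T_two_iff.2 (by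
      rw [ew, mul_assoc, ← mul_assoc Y, ← cY, ← mul_assoc, ← mul_assoc, nn]; simp)) w1
    obtain ⟨v, hv⟩ := h.rk_sq (c3 hp)
    refine w1 (h.tv w wP v fun x => ?_)
    have := LinearMap.congr_fun ew x
    rw [hn] at this
    simp only [LinearMap.sub_apply, End.one_apply] at this
    rw [this]; exact hv _
  have F0 : n * (u⁻¹.1 * g⁻¹.1 - g.1) = 0 := by
    rw [w1, hY] at ew
    have := congrArg (· * (u'.1 * u.1)) ew
    simp only [nc k V, sub_self] at this
    have h2 : θ • (n * (u⁻¹.1 * g⁻¹.1 - g.1)) = 0 := by simp only [nc k V]; exact this.symm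
    exact (smul_eq_zero.1 h2).resolve_left θ0
  have n0 : n = 0 := by
    have b1 : u⁻¹.1 = 1 - A := by rw [ui, hA]; simp only [nc k V]; abel
    have b2 : n * (g.1 - g⁻¹.1) = -(n * A * g⁻¹.1) := by
      rw [b1] at F0; simp only [nc k V] at F0 ⊢; linear_combination (norm := module) -F0
    have b3 : n * A * A = 0 := by rw [hn', hA]; simp only [nc k V, n4, n4']; abel
    have b4 : n * A * N = 0 := by rw [mul_assoc, An, nn]
    have b5 : (g.1 - g⁻¹.1) * (g.1 - g⁻¹.1) = (θ ^ 2 - 4) • 1 := by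
      simp only [gi, nc k V, sq_of_T e]; module
    have b6 : (g.1 - g⁻¹.1) * n = n * (g.1 - g⁻¹.1) := by simp only [nc k V, c, ci]
    have b7 : (θ ^ 2 - 4) • n = -(n * A * g⁻¹.1 * (g.1 - g⁻¹.1)) := by
      rw [← neg_mul, ← b2, mul_assoc, b5]; simp
    have cA : A * n = n * A := by rw [hn', hA]; simp only [nc k V, n4, n4']
    have b8 : (θ ^ 2 - 4) • (n * A) = 0 := by
      rw [← smul_mul_assoc, b7]
      have a1 : g⁻¹.1 * (g.1 - g⁻¹.1) = (2 : k) • 1 - θ • g⁻¹.1 := by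
        rw [mul_sub, sq_of_T (g := g⁻¹) (by rw [T_inv, e]), Units.inv_mul]; module
      rw [mul_assoc (n * A), a1, neg_mul, mul_assoc (n * A), sub_mul, smul_mul_assoc, smul_mul_assoc,
        ← r2, one_mul, mul_sub, mul_smul_comm, mul_smul_comm, b3, ← mul_assoc, b4]
      simp
    rw [(smul_eq_zero.1 b8).resolve_left d4] at b7
    simpa [d4] using b7
  have eu : T u = (2 : k) • 1 := sub_eq_zero.1 (hnT.trans n0)
  have NN : N * N = 0 := by simpa [hN] using T_two_iff.1 eu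
  have AN : A = N := by simp [hA, NN]
  have := h.sh_norm hu hg eu e θ0 (by
    rw [hN, add_sub_cancel_left, mul_assoc, r1, AN, ← mul_assoc, NN, zero_mul])
  rw [hN, add_sub_cancel_left, r1, AN] at this
  have b : (θ ^ 2 - 4) • N = 0 := by
    have b5 : (g.1 - g⁻¹.1) * (g.1 - g⁻¹.1) = (θ ^ 2 - 4) • 1 := by
      simp only [gi, nc k V, sq_of_T e]; module
    rw [← mul_one N, ← mul_smul_comm, ← b5, ← mul_assoc, mul_sub N, this, sub_self, zero_mul]
  exact Units.ext (by simp [hN, (smul_eq_zero.1 b).resolve_left d4])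

/-- pairs without irreducible eigenvalue commute -/
theorem S2.red (h : S2 p P π) (hg : g ∈ P) (hg' : g' ∈ P) (e : T g = θ • 1) (e' : T g' = θ • 1)
    (θ0 : θ ≠ 0) (H : ∀ (ρ : k) (v : V), v ≠ 0 → T (g * g') v = ρ • v → ρ = 2 ∨ ρ = θ ^ 2 - 2) :
    g * g' = g' * g := by
  by_cases h4 : θ ^ 2 = 4
  · have H' : ∀ (ρ : k) (v : V), v ≠ 0 → T (g * g') v = ρ • v → ρ = 2 := fun ρ v v0 f =>
      (H ρ v v0 f).elim id fun f => by rw [f, h4]; norm_num
    rcases sq_eq_sq_iff_eq_or_eq_neg.1 (show θ ^ 2 = 2 ^ 2 by rw [h4]; norm_num) with rfl | rfl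
    · exact h.red2 hg hg' e e' H'
    · simpa using h.red2 (h.neg hg) (h.neg hg') (by rw [T_neg, e]; simp) (by rw [T_neg, e']; simp)
        (by simpa using H')
  have hn := nil_quad h.two H
  obtain ⟨c1, c2⟩ := xi_comm e e'
  have cc : ((T (g * g') - (2 : k) • 1) * (T (g * g') - (θ ^ 2 - 2) • 1)) * g.1 =
      g.1 * ((T (g * g') - (2 : k) • 1) * (T (g * g') - (θ ^ 2 - 2) • 1)) := by
    have : Commute (T (g * g')) g.1 := c1
    exact ((this.sub_left ((Commute.one_left _).smul_left _)).mul_left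
      (this.sub_left ((Commute.one_left _).smul_left _))).eq
  rw [← comm_sq e e'] at hn cc
  set E := g.1 * g'.1 - g'.1 * g.1 with hE
  have a1 : E * g⁻¹.1 = g.1 * E := by simp only [hE, inv_of_T e, nc k V, sq_of_T e, sqm_of_T e]; module
  have a2 : E * g'⁻¹.1 = g'.1 * E := by
    simp only [hE, inv_of_T e', nc k V, sq_of_T e', sqm_of_T e']; module
  have a4 : E * g'.1 = g'⁻¹.1 * E := by
    simp only [hE, inv_of_T e', nc k V, sq_of_T e', sqm_of_T e']; module
  have m : ∀ {X Y : End k V}, E * X = Y * E → ∀ Z, E * (X * Z) = Y * (E * Z) := fun e Z => by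
    rw [← mul_assoc, e, mul_assoc]
  have eu : (g⁻¹ * (g' * g * g'⁻¹)).1 - 1 = -(g⁻¹.1 * E * g'⁻¹.1) := by simp only [hE, nc k V]; abel
  have en : T (g⁻¹ * (g' * g * g'⁻¹)) - (2 : k) • 1 = E * E := by
    rw [T_sub, eu]
    have cc' := comm_inv cc
    have : ∀ X, E * (E * (g⁻¹.1 * X)) = g⁻¹.1 * (E * (E * X)) := fun X => by
      simpa only [nc k V] using congrArg (· * X) cc'
    have a3 : E * g.1 = g⁻¹.1 * E := by
      simp only [hE, inv_of_T e, nc k V, sq_of_T e, sqm_of_T e]; module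
    simp only [nc k V, m a1, m a2, neg_neg, a3, m a3, a1, m a4, a2]
  have := h.red_u hg (P.mul_mem (P.inv_mem hg) (T_conj_mem hg' ⟨hg, e⟩).1) e
    (by rw [mul_inv_cancel_left]; exact (T_conj_mem hg' ⟨hg, e⟩).2) θ0 h4
    (un_of_T (by rwa [en])) (by rw [en, cc])
  rw [inv_mul_eq_one, eq_mul_inv_iff_mul_eq] at this
  exact this

end Cfsg.Agent.H6.L4
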