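import Cfsg.Agent.H6.L4.P1

/-! Pairs of quadratic elements: planes, determinants, the Siegel case. -/

set_option autoImplicit false
set_option linter.unusedSimpArgs false
set_option linter.unusedSectionVars false
set_option linter.unusedVariables false

namespace Cfsg.Agent.H6.L4

open Module Cfsg.Agent.H8.M3 Matrix
open Cfsg.Agent.H6.S4 hiding St S2 X3 Quad Pair3 Beta

universe u

variable {k V : Type*} [Field k] [AddCommGroup V] [Module k V] [FiniteDimensional k V]
  {G : Type u} [Group G] {P : Subgroup (End k V)ˣ} {π : P →* G} {p : ℕ}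
  {g g' x y u d : (End k V)ˣ} {θ ρ s t : k} {N N' ν : End k V} {U I : Submodule k V}

/-- two complementary planes -/
structure Cp (U I : Submodule k V) : Prop where
  d1 : finrank k U = 2
  d2 : finrank k I = 2
  dj : ∀ v ∈ U, v ∈ I → v = 0
  sp : ∀ v, ∃ a ∈ U, ∃ b ∈ I, v = a + b

theorem Cp.symm (h : Cp U I) : Cp I U := ⟨h.d2, h.d1, fun v a b => h.dj v b a, fun v =>
  let ⟨a, ha, b, hb, e⟩ := h.sp v; ⟨b, hb, a, ha, by rw [e, add_comm]⟩⟩

theorem Cp.ext (h : Cp U I) {X Y : End k V} (h1 : ∀ v ∈ U, X v = Y v) (h2 : ∀ v ∈ I, X v = Y v) :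
    X = Y := LinearMap.ext fun v => by
  obtain ⟨a, ha, b, hb, rfl⟩ := h.sp v
  rw [map_add, map_add, h1 a ha, h2 b hb]

theorem cp_of (hd : finrank k V = 4) (d1 : finrank k U = 2) (d2 : finrank k I = 2)
    (dj : ∀ v ∈ U, v ∈ I → v = 0) : Cp U I := by
  refine ⟨d1, d2, dj, fun v => ?_⟩
  have e := Submodule.finrank_sup_add_finrank_inf_eq U I
  rw [(Submodule.eq_bot_iff (U ⊓ I)).2 fun v hv => dj v hv.1 hv.2, finrank_bot] at e
  have : U ⊔ I = ⊤ := Submodule.eq_top_of_finrank_eq (by omega)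
  obtain ⟨a, ha, b, hb, e⟩ := Submodule.mem_sup.1 (this ▸ Submodule.mem_top : v ∈ U ⊔ I)
  exact ⟨a, ha, b, hb, e.symm⟩

theorem det4 (hd : finrank k V = 4) {a b c e : V}
    (ind : ∀ s t u r : k, s • a + t • b + u • c + r • e = 0 → s = 0 ∧ t = 0 ∧ u = 0 ∧ r = 0)
    {f : End k V} {m1 m2 m3 m4 n1 n2 n3 n4 : k} (h1 : f a = m1 • a + m2 • b)
    (h2 : f b = m3 • a + m4 • b) (h3 : f c = n1 • c + n2 • e) (h4 : f e = n3 • c + n4 • e) :
    LinearMap.det f = (m1 * m4 - m3 * m2) * (n1 * n4 - n3 * n2) := by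
  have li : LinearIndependent k ![a, b, c, e] := Fintype.linearIndependent_iff.2 fun x hx i => by
    obtain ⟨e0, e1, e2, e3⟩ := ind (x 0) (x 1) (x 2) (x 3) (by simpa [Fin.sum_univ_four] using hx)
    fin_cases i <;> assumption
  let B := basisOfLinearIndependentOfCardEqFinrank li (by simp [hd])
  have hB : ∀ i, B i = ![a, b, c, e] i := fun i => by simp [B]
  have : f = toLin B B !![m1, m3, 0, 0; m2, m4, 0, 0; 0, 0, n1, n3; 0, 0, n2, n4] :=
    B.ext fun i => by
      rw [toLin_self]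
      fin_cases i <;> simp [Fin.sum_univ_four, hB, h1, h2, h3, h4]
  rw [this, LinearMap.det_toLin]
  simp [det_succ_row_zero, Fin.sum_univ_succ, Fin.succAbove]
  ring

theorem tr_of_act {v w : V} (hU : ∀ z ∈ U, ∃ a b : k, z = a • v + b • w) (h : Act v w d.1) :
    ∃ t, Tr U d t := by
  obtain ⟨M, h1, h2⟩ := h
  refine ⟨M.trace, fun z hz => ?_⟩
  obtain ⟨a, b, rfl⟩ := hU z hz
  have e := h2 ((M.trace • 1 - M) *ᵥ ![a, b])
  rw [mulVec_mulVec, mul_sub, ch2 h1, mul_smul_comm, mul_one, sub_sub_cancel, one_mulVec] at e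
  have e' := congrArg d⁻¹.1 e
  rw [ui, sub_mulVec, map_sub, ← h2, smul_mulVec, one_mulVec, map_smul] at e'
  change T d (co v w ![a, b]) = M.trace • co v w ![a, b]
  rw [T, LinearMap.add_apply, ← e']; abel

theorem St.act (h : St P π) (hc : Cp U I) (hd : d ∈ P) (dI : d ∈ sU I) {v w a b : V} (hv : v ∈ U)
    (hw : w ∈ U) (v0 : v ≠ 0) (vw : ∀ c : k, w ≠ c • v) (ha : a ∈ I) (hb : b ∈ I) (a0 : a ≠ 0)
    (ab : ∀ c : k, b ≠ c • a) (hA : Act v w d.1) : Act a b d.1 := by
  obtain ⟨M, h1, h2⟩ := hA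
  obtain ⟨n1, n2, e1⟩ := span2 hc.d2 ha hb a0 ab (dI a ha).1
  obtain ⟨n3, n4, e2⟩ := span2 hc.d2 ha hb a0 ab (dI b hb).1
  refine act_of e1 e2 ?_
  have f1 := h2 ![1, 0]
  have f2 := h2 ![0, 1]
  rw [co0, co_apply] at f1
  rw [co1, co_apply] at f2
  have := det4 h.dim (fun s t u r e => by
    have z := hc.dj (s • v + t • w) (U.add_mem (U.smul_mem _ hv) (U.smul_mem _ hw)) (by
      rw [show s • v + t • w = -(u • a + r • b) by linear_combination (norm := module) e]
      exact I.neg_mem (I.add_mem (I.smul_mem _ ha) (I.smul_mem _ hb)))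
    have z1 := indep2 v0 vw (c' := 0) (d' := 0) (z.trans (by simp))
    have z2 := indep2 a0 ab (c := u) (d := r) (c' := 0) (d' := 0) (by
      linear_combination (norm := module) e - z)
    exact ⟨z1.1, z1.2, z2.1, z2.2⟩) f1 f2 e1 e2
  rw [h.det d hd] at this
  rw [det_fin_two] at h1
  simp [mulVec, dotProduct, Fin.sum_univ_two] at this
  linear_combination -this - (n1 * n4 - n3 * n2) * h1

theorem St.trI (h : St P π) (hc : Cp U I) (hd : d ∈ P) (dI : d ∈ sU I) {v w : V} (hv : v ∈ U)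
    (hw : w ∈ U) (v0 : v ≠ 0) (vw : ∀ c : k, w ≠ c • v) (hA : Act v w d.1) : ∃ t, Tr I d t := by
  obtain ⟨a, ha, a0⟩ := ne2 hc.d2
  obtain ⟨b, hb, ab⟩ := basis2 hc.d2 a0
  exact tr_of_act (fun z hz => span2 hc.d2 ha hb a0 ab hz) (h.act hc hd dI hv hw v0 vw ha hb a0 ab hA)

theorem un2 (hI : finrank k I ≤ 2) (yI : y ∈ sU I) (hu : Un y) : Tr I y 2 := fun v hv => by
  have hm : ∀ v ∈ I, (y.1 - 1) v ∈ I := fun v hv => I.sub_mem (yI v hv).1 hv
  set M := (y.1 - 1).restrict hm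
  have hM : IsNilpotent M := Module.End.isNilpotent.restrict hm hu
  have M2 : M * M = 0 := by
    have a0 : finrank k (LinearMap.range (1 : End k I)) ≤ 2 := (Submodule.finrank_le _).trans hI
    rcases rk_step hM 1 (by simp) with a1 | a1
    swap; · rw [← mul_one M, a1]; simp
    rw [mul_one] at a1
    rcases rk_step hM M rfl with a2 | a2
    swap; · rw [a2, mul_zero]
    exact LinearMap.range_eq_bot.1 (Submodule.finrank_eq_zero.1 (by omega))
  have := congrArg Subtype.val (LinearMap.congr_fun M2 ⟨_, (yI v hv).2⟩)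
  have e := LinearMap.congr_fun (T_sub y) v
  change (y.1 - 1) ((y.1 - 1) (y⁻¹.1 v)) = 0 at this
  simp only [End.mul_apply, this] at e
  exact sub_eq_zero.1 e

theorem Tr.fix2 (h : Tr U d 2) (dU : d ∈ sU U) {v : V} (hv : v ∈ U) :
    d.1 (d.1 v - v) = d.1 v - v := by
  have := h _ (dU v hv).1
  simp only [T, LinearMap.add_apply, ui] at this
  rw [map_sub]; linear_combination (norm := module) this

variable [Fact p.Prime] [CharP k p] [IsAlgClosed k]

theorem St.pp_triv (p : ℕ) [Fact p.Prime] [CharP k p] (h : St P π) (hc : Cp U I) (hd : d ∈ P)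
    (dU : d ∈ sU U) (dI : d ∈ sU I) (h1 : Tr U d t) (h4 : t ^ 2 ≠ 4) (h2 : Tr I d 2) :
    ∀ v ∈ I, d.1 v = v := by
  obtain ⟨r, r0, hr⟩ := h.upart p hd
  obtain ⟨l, l0, rfl⟩ := exists_root t
  have d0 : l - l⁻¹ ≠ 0 := fun d0 => h4 (by
    linear_combination (l - l⁻¹) * d0 + 4 * mul_inv_cancel₀ l0)
  have fx : ∀ (v : V) (c : k), d.1 v = c • v → (d ^ r).1 v = v := fun v c e => by
    by_cases v0 : v = 0
    · simp [v0]
    rw [eig_pow e, hr.eig v0 (eig_pow e r), one_smul]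
  have fU : ∀ v ∈ U, (d ^ r).1 v = v := fun v hv => by
    have a := h1 _ (dU v hv).1
    simp only [T, LinearMap.add_apply, ui] at a
    have b1 := fx (d.1 v - l⁻¹ • v) l (by
      rw [map_sub, map_smul, smul_sub, smul_smul, mul_inv_cancel₀ l0]
      linear_combination (norm := module) a)
    have b2 := fx (d.1 v - l • v) l⁻¹ (by
      rw [map_sub, map_smul, smul_sub, smul_smul, inv_mul_cancel₀ l0]
      linear_combination (norm := module) a)
    simp only [map_sub, map_smul] at b1 b2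
    exact smul_right_injective V d0 (by simp only; linear_combination (norm := module) b1 - b2)
  obtain ⟨a, ha, a0⟩ := ne2 hc.d2
  obtain ⟨c, x, hx, x0, e⟩ := exists_eigv dI h2 ha a0
  have d1 : d ^ r = 1 := h.tv3 (P.pow_mem hd r) (K := U ⊔ k ∙ x) (by
    have := Submodule.finrank_lt_finrank_of_lt (show U < U ⊔ k ∙ x from left_lt_sup.2 fun f =>
      x0 (hc.dj x (f (Submodule.mem_span_singleton_self x)) hx))
    have := hc.d1
    omega) fun v hv => by
    obtain ⟨a, ha, b, hb, rfl⟩ := Submodule.mem_sup.1 hv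
    obtain ⟨s, rfl⟩ := Submodule.mem_span_singleton.1 hb
    rw [map_add, map_smul, fU a ha, fx x c e]
  intro v hv
  have := tv_pow (c := (1 : k)) (Tr.fix2 h2 dI hv) (z := v) (by simp) r
  rw [d1] at this
  simpa [r0, sub_eq_zero] using this

theorem S2.sieg (h : S2 p P π) (hx : x ∈ P) (hg : g ∈ P) (e : T g = θ • 1) (θ0 : θ ≠ 0)
    (ex : T x = s • 1 + ν) (h0 : ν * ν = 0) (c : g.1 * ν = ν * g.1) (h4 : s ^ 2 ≠ 4) :
    (g.1 * x.1 - x.1 * g.1) * ν = 0 := by
  obtain ⟨l, l0, rfl⟩ := exists_root s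
  have hl := mul_inv_cancel₀ l0
  generalize l⁻¹ = μ at *
  have d0 : l - μ ≠ 0 := fun d0 => h4 (by linear_combination (l - μ) * d0 + 4 * hl)
  by_cases ν0 : ν = 0
  · simp [ν0]
  have ch := T_cheb hl h0 ex
  obtain ⟨r, a, hr, hra⟩ := h.ppart (p := p) hx
  have e1 := congrArg (· * ν) (ch (r * p ^ a))
  simp only [hra, T_one, nc k V, h0, smul_zero, add_zero, smul_smul] at e1
  have e2 := mul_left_cancel₀ d0 (smul_left_injective k ν0 e1)
  have hp : ∀ n, l ^ n * μ ^ n = 1 := fun n => by rw [← mul_pow, hl, one_pow]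
  have e3 : l ^ r = 1 := by
    have : (l ^ r - 1) ^ p ^ a = 0 := by
      rw [sub_pow_char_pow, ← pow_mul, one_pow]
      exact pow_eq_zero_iff two_ne_zero |>.1 (by linear_combination -l ^ (r * p ^ a) * e2 - hp (r * p ^ a))
    exact sub_eq_zero.1 (pow_eq_zero_iff (pow_pos (Fact.out : p.Prime).pos a).ne' |>.1 this)
  have e4 : μ ^ r = 1 := by simpa [e3] using hp r
  have e5 : T (x ^ r) = (2 : k) • 1 := smul_right_injective _ d0 (by
    simp only [ch r, e3, e4]; module)
  have e6 := ch (r + 1)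
  rw [pow_succ' x, pow_succ l, pow_succ μ, e3, e4] at e6
  have cx : ν * x.1 = x.1 * ν := by
    have := T_comm x
    simp only [ex, nc k V] at this
    exact (add_left_cancel this).symm
  have cy : (x ^ r).1 * x.1 = x.1 * (x ^ r).1 := congrArg Units.val ((Commute.refl x).pow_left r).eq
  have yP := P.pow_mem hx r
  generalize x ^ r = y at *
  have xi : x⁻¹.1 = (l + μ) • 1 + ν - x.1 := by rw [← ex, T, add_sub_cancel_left]
  have x2 : x.1 * x.1 = (l + μ) • x.1 + ν * x.1 - 1 := by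
    have := x.mul_inv
    rw [xi] at this; simp only [nc k V, ← cx] at this
    linear_combination (norm := module) -this
  obtain ⟨M, hM⟩ : ∃ M, y.1 = 1 + M := ⟨y.1 - 1, by abel⟩
  have cM : M * x.1 = x.1 * M := by simpa [hM, add_mul, mul_add] using cy
  have cM' := comm_inv cM
  have e7 : (x.1 - x⁻¹.1) * M = (r : k) • ν := smul_right_injective _ d0 (by
    have := ex
    simp only [T, nc k V, inv_of_T e5, hM, cM'] at e6 this ⊢
    push_cast at e6
    linear_combination (norm := module) e6 - (l - μ) • this)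
  have X2 : (x.1 - x⁻¹.1) * (x.1 - x⁻¹.1) = ((l + μ) ^ 2 - 4) • 1 + (2 * (l + μ)) • ν := by
    have m : ∀ Z, x.1 * (ν * Z) = ν * (x.1 * Z) := fun Z => by rw [← mul_assoc, ← cx, mul_assoc]
    have h0' : ∀ Z, ν * (ν * Z) = 0 := fun Z => by rw [← mul_assoc, h0, zero_mul]
    simp only [xi, nc k V, x2, ← cx, h0, h0']; module
  have cX : ν * (x.1 - x⁻¹.1) = (x.1 - x⁻¹.1) * ν := by simp only [nc k V, cx, comm_inv cx]
  generalize hX : x.1 - x⁻¹.1 = X at *
  have d4 := sub_ne_zero.2 h4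
  have e8 : ((l + μ) ^ 2 - 4) • M + (2 * (l + μ)) • (ν * M) = (r : k) • (X * ν) := by
    have := congrArg (X * ·) e7
    simpa only [← mul_assoc, X2, nc k V] using this
  have e9 : ν * M = 0 := by
    have := congrArg (ν * ·) e8
    simp only [mul_add, mul_smul_comm, ← mul_assoc, h0, cX, zero_mul, smul_zero, add_zero,
      mul_assoc X, mul_zero] at this
    exact (smul_eq_zero.1 this).resolve_left d4
  rw [e9, smul_zero, add_zero] at e8
  have r0 : (r : k) ≠ 0 := cast_ne hr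
  have n1 := h.sh_norm yP hg e5 e θ0 (by
    rw [hM, add_sub_cancel_left]
    refine smul_right_injective _ d4 ?_
    simp only
    rw [← smul_mul_assoc, ← smul_mul_assoc, e8]
    simp only [nc k V]
    rw [← mul_assoc ν, ← c, mul_assoc, e9]; simp)
  rw [hM, add_sub_cancel_left] at n1
  have n2 : g.1 * (X * ν) = X * (g.1 * ν) := smul_right_injective _ r0 (by
    simp only
    rw [← mul_smul_comm, ← e8, c, ← mul_assoc, ← smul_mul_assoc, ← e8, mul_smul_comm, n1,
      smul_mul_assoc])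
  refine smul_right_injective _ h.two ?_
  have h0' : ν * (g.1 * ν) = 0 := by rw [c, ← mul_assoc, h0, zero_mul]
  rw [← hX, xi] at n2
  simp only [nc k V, h0, h0', smul_zero] at n2 ⊢
  linear_combination (norm := module) n2

section Ir

variable (e : T g = θ • 1) (e' : T g' = θ • 1) (r1 : ρ ≠ 2) (r2 : ρ ≠ θ ^ 2 - 2)
include e e' r1 r2

theorem ga_ne : ga θ ρ ≠ 2 := fun e => by
  rcases mul_eq_zero.1 (show (ρ - 2) * (ρ - (θ ^ 2 - 2)) = 0 by rw [ga] at e; linear_combination e)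
    with e | e
  exacts [r1 (sub_eq_zero.1 e), r2 (sub_eq_zero.1 e)]

theorem noc {x : V} (hx : T (g * g') x = ρ • x) (x0 : x ≠ 0) {α β : k} (a1 : g.1 x = α • x)
    (a2 : g'.1 x = β • x) : False := ga_ne e e' r1 r2 (smul_left_injective k x0 (by
  obtain ⟨α0, a3⟩ := inv_eig x0 a1
  obtain ⟨β0, a4⟩ := inv_eig x0 a2
  have : (cm g g').1 x = (1 : k) • x := by
    simp only [um, a1, a2, a3, a4, map_smul, smul_smul]; congr 1; field_simp
  simp only
  rw [← (PU.of e e' ρ).tc x (End.mem_eigenspace_iff.2 hx), T_eig x0 this]; norm_num))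

omit r1 r2 in
theorem gw {v : V} {l μ : k} (hl : l * μ = 1) (hθ : l + μ = θ) (hv : T (g * g') v = ρ • v)
    (gv : g.1 v = l • v) : g.1 (g'.1 v) = (ρ - θ * μ) • v + μ • g'.1 v := by
  have := LinearMap.congr_fun (swap_eq e e') v
  simp only [End.mul_apply, LinearMap.add_apply, LinearMap.sub_apply, LinearMap.smul_apply,
    End.one_apply, hv, gv, map_smul] at this
  linear_combination (norm := module) this - hθ • g'.1 v + (θ * hθ) • v

theorem dec {l μ : k} (hl : l * μ = 1) (hθ : l + μ = θ) {z : V} (hz : T (g * g') z = ρ • z) :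
    ∃ a b, (T (g * g') a = ρ • a ∧ g.1 a = l • a) ∧ (T (g * g') b = ρ • b ∧ g.1 b = l • b) ∧
      z = a + g'.1 b := by
  obtain ⟨c1, c2⟩ := xi_comm e e'
  have key : ∀ y, T (g * g') y = ρ • y → T (g * g') (g.1 y - μ • y) = ρ • (g.1 y - μ • y) ∧
      g.1 (g.1 y - μ • y) = l • (g.1 y - μ • y) := fun y hy => by
    refine ⟨by rw [map_sub, map_smul, ← End.mul_apply, c1, End.mul_apply, hy, map_smul]; module, ?_⟩
    have := LinearMap.congr_fun (sq_of_T e) y
    simp only [End.mul_apply, LinearMap.sub_apply, LinearMap.smul_apply, End.one_apply] at this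
    rw [map_sub, map_smul]
    linear_combination (norm := module) this - hθ • g.1 y + hl • y
  have hz' : T (g * g') (g'.1 z) = ρ • g'.1 z := by
    rw [← End.mul_apply, c2, End.mul_apply, hz, map_smul]
  have hc : ∀ α β : k, T (g * g') (α • z + β • g'.1 z) = ρ • (α • z + β • g'.1 z) := fun α β => by
    rw [map_add, map_smul, map_smul, hz, hz']; module
  obtain ⟨Δ, hΔ⟩ : ∃ Δ, Δ * (-((ρ - 2) * (ρ - (θ ^ 2 - 2)))) = 1 :=
    ⟨_, inv_mul_cancel₀ (neg_ne_zero.2 (mul_ne_zero (sub_ne_zero.2 r1) (sub_ne_zero.2 r2)))⟩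
  refine ⟨_, _, key _ (hc (Δ * (θ * (ρ - θ * μ) - (l - μ))) (Δ * -(ρ - θ * μ))),
    key _ (hc (Δ * -(ρ - θ * μ)) (Δ * (l - μ))), ?_⟩
  have s1 := LinearMap.congr_fun (swap_eq e e') z
  have s2 := LinearMap.congr_fun (swap_eq e e') (g'.1 z)
  have s3 := LinearMap.congr_fun (sq_of_T e') z
  simp only [End.mul_apply, LinearMap.add_apply, LinearMap.sub_apply, LinearMap.smul_apply,
    End.one_apply, hz, hz'] at s1 s2 s3
  simp only [map_add, map_sub, map_smul, s1, s2, s3]
  subst hθ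
  match_scalars <;> grind

end Ir

end Cfsg.Agent.H6.L4
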