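import Cfsg.Agent.H6.L4.P2

/-! Pairs of quadratic elements: the pair lemma. -/

set_option autoImplicit false
set_option linter.unusedSimpArgs false
set_option linter.unusedSectionVars false
set_option linter.unusedVariables false

namespace Cfsg.Agent.H6.L4

open Module Cfsg.Agent.H8.M3 Matrix
open Cfsg.Agent.H6.S4 hiding St S2 X3 Quad Pair3 Beta

universe u

variable {k V : Type*} [Field k] [AddCommGroup V] [Module k V] [FiniteDimensional k V]
  {G : Type u} [Group G] {P : Subgroup (End k V)ˣ} {π : P →* G} {p : ℕ}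
  {g g' x y u d : (End k V)ˣ} {θ ρ ρ' s t : k} {N N' ν : End k V} {U I : Submodule k V}

variable [Fact p.Prime] [CharP k p] [IsAlgClosed k]

theorem mem_sU_of_comm {c : End k V} (hI : ∀ v, v ∈ I ↔ c v = ρ • v) (h : c * d.1 = d.1 * c) :
    d ∈ sU I := by
  have : I = c.eigenspace ρ := Submodule.ext fun v => (hI v).trans End.mem_eigenspace_iff.symm
  rw [this]; exact mem_sU_eig h ρ

set_option maxHeartbeats 2000000 in
theorem S2.pair_ex (h : S2 p P π) (hg : g ∈ P) (hg' : g' ∈ P) (e : T g = θ • 1)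
    (e' : T g' = θ • 1) (θ0 : θ ≠ 0) {v0 : V} (hv0 : v0 ≠ 0)
    (hρ : T (g * g') v0 = ρ • v0) (r1 : ρ ≠ 2) (r2 : ρ ≠ θ ^ 2 - 2)
    (hI : T (g * g') = ρ • 1 ∨ ∃ ρ', Cp ((T (g * g')).eigenspace ρ) ((T (g * g')).eigenspace ρ')) :
    Irr θ ρ := by
  refine ⟨r1, r2, ?_⟩
  have := h.fin
  obtain ⟨c1, c2⟩ := xi_comm e e'
  set U := (T (g * g')).eigenspace ρ
  have hU : ∀ v, v ∈ U ↔ T (g * g') v = ρ • v := fun v => End.mem_eigenspace_iff
  have u1 : g ∈ sU U := mem_sU_eig c1 ρ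
  have u2 : g' ∈ sU U := mem_sU_eig c2 ρ
  have t1 := Tr.of e U
  have t2 := Tr.of e' U
  have t3 : Tr U (g * g') ρ := fun v hv => (hU v).1 hv
  have t4 : Tr U (g⁻¹ * g') (θ ^ 2 - ρ) := fun v hv => by
    simp [T_inv_mul e e', (hU v).1 hv, sub_smul, sq]
  have t5 : Tr U (g * (g * g')) (θ * ρ - θ) := Tr.mul u1 t1 t3 ((t2.inv.conj u1).congr (by group) rfl)
  have t6 := (Tr.comm u1 u2 t1 t2 t3).congr rfl
    (show _ = 2 * θ ^ 2 + ρ ^ 2 - θ ^ 2 * ρ - 2 by ring)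
  have γ2 : 2 * θ ^ 2 + ρ ^ 2 - θ ^ 2 * ρ - 2 ≠ 2 := ga_ne e e' r1 r2
  have noc : ∀ x ∈ U, x ≠ 0 → ∀ α β : k, g.1 x = α • x → g'.1 x = β • x → False :=
    fun x hx x0 α β a1 a2 => noc e e' r1 r2 ((hU x).1 hx) x0 a1 a2
  obtain ⟨l, v, hv, v0, gv⟩ := exists_eigv u1 t1 ((hU _).2 hρ) hv0
  obtain ⟨l0, gv'⟩ := inv_eig v0 gv
  have hl : l + l⁻¹ = θ := smul_left_injective k v0 ((T_eig v0 gv).symm.trans (t1 v hv))
  have hl' := mul_inv_cancel₀ l0
  set w := g'.1 v with hw0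
  have hw : ∀ c : k, w ≠ c • v := fun c e => noc v hv v0 _ _ gv e
  have coU : ∀ c, co v w c ∈ U := fun c => U.add_mem (U.smul_mem _ hv) (U.smul_mem _ (u2 v hv).1)
  have co0' : ∀ c : Fin 2 → k, c ≠ 0 → co v w c ≠ 0 := fun c h0 e => h0 (co_inj v0 hw (by simpa using e))
  obtain ⟨D, hD⟩ : ∃ D : Subgroup (End k V)ˣ, ∀ d, d ∈ D ↔ d ∈ P ∧
      (∃ M : M2 k, M.det = 1 ∧ ∀ a ∈ U, g.1 a = l • a → ∀ c, d.1 (co a (g'.1 a) c) =
        co a (g'.1 a) (M *ᵥ c)) ∧ T (g * g') * d.1 = d.1 * T (g * g') := ⟨finSub P _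
    ⟨⟨1, det_one, fun a _ _ c => by simp⟩, by simp⟩
    fun a ha b hb ⟨⟨M, m1, m2⟩, h1⟩ ⟨⟨M', m1', m2'⟩, h2⟩ => ⟨⟨M * M', by simp [m1, m1'],
      fun z hz gz c => by rw [← mulVec_mulVec, ← m2 z hz gz, ← m2' z hz gz]; rfl⟩,
      (Commute.mul_right h1 h2).eq⟩, fun _ => Iff.rfl⟩
  have hDP : D ≤ P := fun d hd => ((hD d).1 hd).1
  have : Finite D := Finite.of_injective _ (Subgroup.inclusion_injective hDP)
  have gD : g ∈ D := (hD _).2 ⟨hg, ⟨!![l, ρ - θ * l⁻¹; 0, l⁻¹], by simp [l0], fun a ha ga c => by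
    simp [co_apply, ga, gw e e' hl' hl ((hU a).1 ha) ga, mulVec, dotProduct, Fin.sum_univ_two]
    module⟩, c1⟩
  have gD' : g' ∈ D := (hD _).2 ⟨hg', ⟨!![0, -1; 1, θ], by simp, fun a ha ga c => by
    have := LinearMap.congr_fun (sq_of_T e') a
    simp only [End.mul_apply, LinearMap.sub_apply, LinearMap.smul_apply, End.one_apply] at this
    simp [co_apply, this, mulVec, dotProduct, Fin.sum_univ_two]
    module⟩, c2⟩
  have negD : ∀ d ∈ D, -d ∈ D := fun d hd =>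
    let ⟨a, ⟨M, m1, m2⟩, b⟩ := (hD d).1 hd
    (hD _).2 ⟨h.neg a, ⟨-M, by simp [det_neg, m1], fun z hz gz c => by
      rw [neg_mulVec, map_neg, ← m2 z hz gz]; rfl⟩, by simp [b]⟩
  have act : ∀ d ∈ D, Act v w d.1 := fun d hd =>
    let ⟨M, m1, m2⟩ := ((hD _).1 hd).2.1
    ⟨M, m1, m2 v hv gv⟩
  obtain ⟨φ, hdet, hφ⟩ := exists_phi ((Units.coeHom _).comp D.subtype) v0 hw fun d => act _ d.2
  replace hφ : ∀ (d : D) c, d.1.1 (co v w c) = co v w ((φ d : M2 k) *ᵥ c) := hφ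
  have hφ' : ∀ (d : D), ∀ a ∈ U, g.1 a = l • a → ∀ c, d.1.1 (co a (g'.1 a) c) =
      co a (g'.1 a) ((φ d : M2 k) *ᵥ c) := fun d a ha ga c => by
    obtain ⟨M, m1, m2⟩ := ((hD _).1 d.2).2.1
    rw [m2 a ha ga, co_inj v0 hw ((hφ d c).symm.trans (m2 v hv gv c))]
  have uni : ∀ X : End k V, (∀ a ∈ U, g.1 a = l • a → ∀ c : Fin 2 → k, X (co a (g'.1 a) c) = 0) →
      ∀ z ∈ U, X z = 0 := fun X hX z hz => by
    obtain ⟨a, b, ha, hb, rfl⟩ := dec e e' r1 r2 hl' hl ((hU z).1 hz)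
    have a1 := hX a ((hU a).2 ha.1) ha.2 ![1, 0]
    have a2 := hX b ((hU b).2 hb.1) hb.2 ![0, 1]
    rw [co0] at a1
    rw [co1] at a2
    rw [map_add, a1, a2, add_zero]
  have tr : ∀ (d : D) (t : k), Tr U d.1 t → (φ d : M2 k).trace = t := fun d t ht => by
    have a := ht _ (coU ![1, 0])
    have b := congrArg (fun M : M2 k => co v w (M *ᵥ ![1, 0])) (inv_add (hdet d))
    simp only [add_mulVec, map_add, ← map_inv, ← hφ, smul_mulVec, one_mulVec, map_smul] at b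
    exact smul_left_injective k (co0' ![1, 0] (by simp)) (b.symm.trans a)
  set G0 := φ ⟨g, gD⟩ with hG0
  set G1 := φ ⟨g', gD'⟩ with hG1
  have tc := tr (⟨g, gD⟩ * ⟨g', gD'⟩ * ⟨g, gD⟩⁻¹ * ⟨g', gD'⟩⁻¹) _ t6
  simp only [map_mul, map_inv, ← hG0, ← hG1] at tc
  have ncm : G0 * G1 ≠ G1 * G0 := fun e => γ2 (by
    rw [← tc, e]; simp [trace_one])
  have fin : ∀ κ, (∀ d, (φ d : M2 k) = 1 ∨ (φ d : M2 k) = -1 ∨ Ex κ (φ d : M2 k).trace) →
      Ex κ θ ∧ Ex κ ρ ∧ Ex κ (θ ^ 2 - ρ) ∧ Ex κ (θ * ρ - θ) ∧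
        Ex κ (2 * θ ^ 2 + ρ ^ 2 - θ ^ 2 * ρ - 2) := fun κ H => by
    have cen : ∀ (d : D) (t : k), Tr U d.1 t → (∀ y, φ d * y = y * φ d) ∨ Ex κ t := fun d t ht => by
      rcases H d with e | e | e
      · exact Or.inl fun y => Units.ext (by simp [e])
      · exact Or.inl fun y => Units.ext (by simp [e])
      · exact Or.inr (tr d t ht ▸ e)
    refine ⟨(cen ⟨g, gD⟩ _ t1).resolve_left fun e => ncm (e _),
      (cen (⟨g, gD⟩ * ⟨g', gD'⟩) _ t3).resolve_left fun e => ncm ?_,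
      (cen (⟨g, gD⟩⁻¹ * ⟨g', gD'⟩) _ t4).resolve_left fun e => ncm ?_,
      (cen (⟨g, gD⟩ * (⟨g, gD⟩ * ⟨g', gD'⟩)) _ t5).resolve_left fun e => ncm ?_, ?_⟩
    · have := e G0
      simp only [map_mul, ← hG0, ← hG1, mul_assoc, mul_right_inj] at this
      exact this.symm
    · have := e G0
      simp only [map_mul, map_inv, ← hG0, ← hG1, mul_assoc, mul_inv_cancel_left,
        inv_mul_eq_iff_eq_mul] at this
      exact this.symm
    · have := e G0
      simp only [map_mul, ← hG0, ← hG1, mul_assoc, mul_right_inj] at this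
      exact this.symm
    · rcases H (⟨g, gD⟩ * ⟨g', gD'⟩ * ⟨g, gD⟩⁻¹ * ⟨g', gD'⟩⁻¹) with e | e | e <;>
        simp only [map_mul, map_inv, ← hG0, ← hG1] at e
      · exact absurd (by rw [← tc, e]; simp [trace_one]) γ2
      · have a : G0 * G1 * G0⁻¹ = -G1 := by
          rw [← neg_one_mul G1, ← mul_inv_eq_iff_eq_mul]; exact Units.ext e
        have b := tr (⟨g, gD⟩ * ⟨g', gD'⟩ * ⟨g, gD⟩⁻¹) _ (t2.conj u1)
        have b' := tr ⟨g', gD'⟩ _ t2
        simp only [map_mul, map_inv, ← hG0, ← hG1, a, Units.val_neg, trace_neg] at b b'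
        rw [b'] at b
        exact absurd ((mul_eq_zero.1 (show 2 * θ = 0 by linear_combination -b)).resolve_left h.two) θ0
      · exact tc ▸ e
  have eig : ∀ (d : D) (x y : Fin 2 → k) (α : k), (φ d : M2 k) *ᵥ x = α • y →
      d.1.1 (co v w x) = α • co v w y := fun d x y α e => by rw [hφ, e, map_smul]
  rcases dickM p h.two φ hdet with ⟨x, x0, hx⟩ | ⟨x, y, x0, xy, hx⟩ | ⟨-, -, κ, H, -⟩ |
    ⟨k0, R, N, N', H⟩
  · obtain ⟨α, a1⟩ := hx ⟨g, gD⟩
    obtain ⟨β, a2⟩ := hx ⟨g', gD'⟩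
    exact (noc _ (coU x) (co0' x x0) _ _ (eig _ _ _ _ a1) (eig _ _ _ _ a2)).elim
  · have key : ∀ d : D, Tr U d.1 θ → ∃ α : k, d.1.1 (co v w x) = α • co v w x := fun d ht => by
      rcases hx d with ⟨⟨α, a1⟩, -⟩ | ⟨⟨α, a1⟩, β, a2⟩
      · exact ⟨α, eig _ _ _ _ a1⟩
      · exfalso
        have b := congrArg (fun M : M2 k => M *ᵥ x) (ch2 (hdet d))
        simp only [← mulVec_mulVec, a1, a2, mulVec_smul, sub_mulVec, smul_mulVec, one_mulVec,
          tr d θ ht] at b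
        have := (indep2 x0 xy (c := α * β) (d := 0) (c' := -1) (d' := θ * α)
          (by linear_combination (norm := module) b))
        rw [(mul_eq_zero.1 this.2.symm).resolve_left θ0] at this
        simp at this
    obtain ⟨α, a1⟩ := key ⟨g, gD⟩ t1
    obtain ⟨β, a2⟩ := key ⟨g', gD'⟩ t2
    exact (noc _ (coU x) (co0' x x0) _ _ a1 a2).elim
  · exact ⟨κ, fin κ H⟩
  have ex : ∀ M ∈ R, M.det = 1 → ∃ d : D, (φ d : M2 k) = M := fun M hM h1 => by
    obtain ⟨d, e | e⟩ := H.ex M hM h1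
    · exact ⟨d, e⟩
    · refine ⟨⟨-d, negD _ d.2⟩, toLin'.injective (LinearMap.ext fun x => co_inj v0 hw ?_)⟩
      simp only [toLin'_apply, ← hφ, Units.val_neg, LinearMap.neg_apply]
      rw [hφ, e, neg_mulVec, map_neg, neg_neg]
  obtain ⟨x, x0, n1, n2⟩ := nil_vec H.sq H.ac
  have sUD : ∀ (d : D) (r : k), d.1 ∈ sU ((T (g * g')).eigenspace r) := fun d r =>
    mem_sU_eig ((hD _).1 d.2).2.2 r
  have sh : ∀ a ∈ k0, ∃ (y : D) (n : ℕ), (n : k) ≠ 0 ∧ (φ y : M2 k) = 1 + (n * a) • N ∧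
      T y.1 = (2 : k) • 1 := fun a ha => by
    obtain ⟨u, hu⟩ := ex (1 + a • N) (R.add_mem R.one_mem (H.smul _ ha _ H.hN)) (det_one_add H.sq a)
    obtain ⟨n, n0, hn⟩ := h.upart p (hDP u.2)
    have hy : (φ (u ^ n) : M2 k) = 1 + (n * a) • N := by
      rw [map_pow, Units.val_pow_eq_pow_val, unip_pow (hdet u) (by
        rw [hu, trace_add, trace_smul, (det_nil H.sq).1]; simp), hu, add_sub_cancel_left, smul_smul]
    refine ⟨u ^ n, n, n0, hy, ?_⟩
    rcases hI with hI | ⟨ρ', hI⟩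
    · refine T_two_iff.2 (LinearMap.ext fun z => uni _ (fun a ha ga c => ?_) z ((hU z).2 (by simp [hI])))
      simp only [End.mul_apply, LinearMap.sub_apply, End.one_apply, hφ' _ a ha ga, ← map_sub, hy,
        add_mulVec, one_mulVec, add_sub_cancel_left, mulVec_mulVec, smul_mul_assoc, mul_smul_comm,
        H.sq, smul_zero, zero_mulVec, map_zero, add_mul, one_mul, add_zero, sub_self]
    · exact hI.ext (un2 hI.d1.le (sUD _ _) hn) (un2 hI.d2.le (sUD _ _) hn)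
  have ez : ∀ (y : D) (a : k), (φ y : M2 k) = 1 + a • N →
      y.1.1 (co v w (N' *ᵥ x)) = co v w (N' *ᵥ x) + a • co v w x := fun y a hy => by
    simp only [hφ, hy, add_mulVec, smul_mulVec, one_mulVec, n2, map_add, map_smul]
  have ne1 : ∀ (y : D) (a : k), (φ y : M2 k) = 1 + a • N → y.1.1 (co v w (N' *ᵥ x)) =
      co v w (N' *ᵥ x) → a = 0 := fun y a hy f => by
    rw [ez y a hy, add_eq_left, smul_eq_zero] at f
    exact f.resolve_right (co0' x x0)
  obtain ⟨y, n, n0, hy, ty⟩ := sh 1 k0.one_mem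
  have y1 : y.1 ≠ 1 := fun f => n0 (by simpa using ne1 y _ hy (by simp [f]))
  have hp := h.p3 (hDP y.2) ty y1
  have h3 := three_eq (k := k) hp
  have cub : ∀ n : ℕ, (n : k) ^ 3 = n := fun n => by
    induction n with
    | zero => simp
    | succ n ih => push_cast; linear_combination ih + ((n : k) ^ 2 + n) * h3
  by_cases k3 : ∀ a ∈ k0, a ^ 3 = a
  · refine ⟨4, fin 4 fun d => Or.inr (Or.inr ?_)⟩
    have a := k3 _ (H.sq_mem hdet d)
    unfold Ex
    grind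
  exfalso
  push Not at k3
  obtain ⟨a, ha, a3⟩ := k3
  obtain ⟨y', n', n0', hy', ty'⟩ := sh a ha
  have nn : ∀ ε : k, ε ^ 3 = ε → (n : k) * 1 * ε + n' * a ≠ 0 := fun ε hε f => a3 (by
    have b1 := cub n
    have b2 := cub n'
    refine mul_left_cancel₀ n0' ?_
    have : (n' : k) * a = -(n * ε) := by linear_combination f
    calc (n' : k) * a ^ 3 = (n' * a) ^ 3 := by rw [mul_pow, b2]
      _ = n' * a := by rw [this, neg_pow, mul_pow, b1, hε]; ring)
  have y1' : y'.1 ≠ 1 := fun f => nn 0 (by simp) (by simpa using ne1 y' _ hy' (by simp [f]))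
  have ym : (φ (y * y') : M2 k) = 1 + (n * 1 * 1 + n' * a) • N := by
    simp only [map_mul, Units.val_mul, hy, hy', add_mul, mul_add, one_mul, mul_one, smul_mul_assoc,
      mul_smul_comm, H.sq, smul_zero, add_zero]; module
  have yi : (φ (y⁻¹ * y') : M2 k) = 1 + (n * 1 * -1 + n' * a) • N := by
    rw [map_mul, map_inv, Units.val_mul, Units.inv_mul_eq_iff_eq_mul]
    simp only [hy, hy', add_mul, mul_add, one_mul, mul_one, smul_mul_assoc,
      mul_smul_comm, H.sq, smul_zero, add_zero]; module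
  have trU : ∀ (d : D) (b : k), (φ d : M2 k) = 1 + b • N → Tr U d.1 2 := fun d b hd z hz => by
    have := uni (T d.1 - (2 : k) • 1) (fun a ha ga c => by
      have b := congrArg (fun M : M2 k => co a (g'.1 a) (M *ᵥ c)) (inv_add (hdet d))
      simp only [add_mulVec, map_add, ← map_inv, ← hφ' _ a ha ga, smul_mulVec, one_mulVec,
        map_smul] at b
      rw [hd, trace_add, trace_smul, (det_nil H.sq).1, trace_one] at b
      simpa [T, sub_eq_zero] using b) z hz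
    simpa [sub_eq_zero] using this
  have T2 : T (y * y').1 = (2 : k) • 1 := by
    rcases hI with hI | ⟨ρ', hI⟩
    · exact LinearMap.ext fun z => trU _ _ ym z ((hU z).2 (by simp [hI]))
    obtain ⟨t, ht⟩ := h.trI hI (hDP (y * y').2) (sUD _ _) hv (u2 v hv).1 v0 hw (act _ (y * y').2)
    by_cases t2 : t = 2
    · exact hI.ext (trU _ _ ym) (t2 ▸ ht)
    exfalso
    by_cases t4 : t ^ 2 = 4
    · have ht' : Tr ((T (g * g')).eigenspace ρ') (y⁻¹ * y').1 0 := fun z hz => by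
        have := LinearMap.congr_fun (T_inv_mul ty ty') z
        have f : t = -2 := (sq_eq_sq_iff_eq_or_eq_neg.1 (show t ^ 2 = 2 ^ 2 by
          rw [t4]; norm_num)).resolve_left t2
        simp only [LinearMap.sub_apply, LinearMap.smul_apply, End.one_apply] at this
        have a := ht z hz
        simp only [Subgroup.coe_mul, Subgroup.coe_inv] at a ⊢
        rw [this, a, f]
        linear_combination (norm := module) (2 * h3) • z
      exact nn (-1) (by ring) (ne1 _ _ yi (h.pp_triv p hI.symm (hDP (y⁻¹ * y').2) (sUD _ _) (sUD _ _)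
        ht' (by simpa using h.four_ne.symm) (trU _ _ yi) _ (coU _)))
    · exact nn 1 (by ring) (ne1 _ _ ym (h.pp_triv p hI.symm (hDP (y * y').2) (sUD _ _) (sUD _ _)
        ht t4 (trU _ _ ym) _ (coU _)))
  have z0 := h.anti0 (h.sh (hDP y.2) ty y1) (h.sh (hDP y'.2) ty' y1') (by
    simp only [T, Subgroup.coe_mul, nc k V, inv_of_T ty, inv_of_T ty'] at T2 ⊢
    linear_combination (norm := module) T2)
  rcases h.sh3 (hDP y.2) (hDP y'.2) ty ty' y1 z0 with f | f | f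
  · exact y1' f
  · exact nn (-1) (by ring) (ne1 _ _ yi (by simp [f]))
  · exact nn 1 (by ring) (ne1 _ _ ym (by simp [f]))

theorem St.dimU (h : St P π) (e : T g = θ • 1) (e' : T g' = θ • 1) {v0 : V} (hv0 : v0 ≠ 0)
    (hρ : T (g * g') v0 = ρ • v0) (r1 : ρ ≠ 2) (r2 : ρ ≠ θ ^ 2 - 2) :
    ∃ v w, v ∈ (T (g * g')).eigenspace ρ ∧ w ∈ (T (g * g')).eigenspace ρ ∧ v ≠ 0 ∧
      (∀ c : k, w ≠ c • v) ∧ Act v w g.1 ∧ Act v w g'.1 ∧
      (T (g * g') = ρ • 1 ∨ finrank k ((T (g * g')).eigenspace ρ) = 2) := by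
  obtain ⟨c1, c2⟩ := xi_comm e e'
  set U := (T (g * g')).eigenspace ρ
  have hU : ∀ v, v ∈ U ↔ T (g * g') v = ρ • v := fun v => End.mem_eigenspace_iff
  have u1 : g ∈ sU U := mem_sU_eig c1 ρ
  have u2 : g' ∈ sU U := mem_sU_eig c2 ρ
  obtain ⟨l, v, hv, v0, gv⟩ := exists_eigv u1 (Tr.of e U) ((hU _).2 hρ) hv0
  obtain ⟨l0, gv'⟩ := inv_eig v0 gv
  have hl : l + l⁻¹ = θ := smul_left_injective k v0 ((T_eig v0 gv).symm.trans (Tr.of e U v hv))
  have hl' := mul_inv_cancel₀ l0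
  have hw : ∀ a ∈ U, a ≠ 0 → g.1 a = l • a → ∀ c : k, g'.1 a ≠ c • a := fun a ha a0 ga c f =>
    noc e e' r1 r2 ((hU a).1 ha) a0 ga f
  refine ⟨v, g'.1 v, hv, (u2 v hv).1, v0, hw v hv v0 gv, act_of (a := l) (b := 0) (by simp [gv])
    (gw e e' hl' hl ((hU v).1 hv) gv) (by simp [l0]), act_of (a := 0) (b := 1) (c := -1) (d := θ)
    (by simp) (by
      have := LinearMap.congr_fun (sq_of_T e') v
      simp only [End.mul_apply, LinearMap.sub_apply, LinearMap.smul_apply, End.one_apply] at this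
      linear_combination (norm := module) this) (by simp), ?_⟩
  by_cases hE : ∀ a ∈ U, g.1 a = l • a → ∃ c : k, a = c • v
  · right
    have li : LinearIndependent k ![v, g'.1 v] :=
      (LinearIndependent.pair_iff' v0).2 fun c e => hw v hv v0 gv c e.symm
    have := finrank_span_eq_card li
    rw [Matrix.range_cons_cons_empty] at this
    rw [show U = Submodule.span k {v, g'.1 v} from le_antisymm (fun z hz => ?_)
      (Submodule.span_le.2 (by rintro x (rfl | rfl); exacts [hv, (u2 v hv).1]))]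
    · simpa using this
    obtain ⟨a, b, ha, hb, rfl⟩ := dec e e' r1 r2 hl' hl ((hU z).1 hz)
    obtain ⟨s, rfl⟩ := hE a ((hU a).2 ha.1) ha.2
    obtain ⟨t, rfl⟩ := hE b ((hU b).2 hb.1) hb.2
    exact Submodule.mem_span_pair.2 ⟨s, t, by simp⟩
  left
  push Not at hE
  obtain ⟨a, ha, ga, av⟩ := hE
  refine LinearMap.ext fun z => ?_
  obtain ⟨s, t, u, r, rfl⟩ := H2.L4.span4 h.h2sc (a := v) (b := a) (d := g'.1 v) (e := g'.1 a)
    (fun s t u r f => by
      have m : u • v + r • a ∈ U := U.add_mem (U.smul_mem _ hv) (U.smul_mem _ ha)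
      have gm : g.1 (u • v + r • a) = l • (u • v + r • a) := by simp [gv, ga]; module
      have z0 : u • v + r • a = 0 := by
        by_contra z0
        have f1 := gw e e' hl' hl ((hU _).1 m) gm
        have f2 : g'.1 (u • v + r • a) = -(s • v + t • a) := by
          simp only [map_add, map_smul]; linear_combination (norm := module) f
        have f3 : g.1 (g'.1 (u • v + r • a)) = l • g'.1 (u • v + r • a) := by
          rw [f2]; simp [gv, ga]; module
        have := indep2 z0 (hw _ m z0 gm) (c := ρ - θ * l⁻¹) (d := l⁻¹) (c' := 0) (d' := l)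
          (by rw [← f1, f3]; simp)
        exact r1 (by linear_combination this.1 - l⁻¹ * hl + hl' + l⁻¹ * this.2 + hl')
      have z1 := indep2 v0 av (c' := 0) (d' := 0) (z0.trans (by simp))
      have z2 := indep2 v0 av (c := s) (d := t) (c' := 0) (d' := 0) (by simpa [z1.1, z1.2] using f)
      exact ⟨z2.1, z2.2, z1.1, z1.2⟩) z
  exact (hU _).1 (U.add_mem (U.add_mem (U.add_mem (U.smul_mem _ hv) (U.smul_mem _ ha))
    (U.smul_mem _ (u2 v hv).1)) (U.smul_mem _ (u2 a ha).1))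

theorem prod2 (hI : finrank k I = 2) (h1 : ∀ v ∈ I, N v ∈ I) (h2 : ∀ v ∈ I, N' v ∈ I)
    (s1 : ∀ v, N (N v) = 0) (s2 : ∀ v, N' (N' v) = 0) (e : ∀ v ∈ I, N (N' v) + N' (N v) = 0) :
    ∀ v ∈ I, N (N' v) = 0 := fun v hv => by
  by_contra f
  have y0 : N' v ≠ 0 := fun e => f (by simp [e])
  have ind : ∀ c : k, N (N' v) ≠ c • N' v := fun c e => by
    have := congrArg N e
    rw [s1, map_smul, eq_comm, smul_eq_zero] at this
    exact f (by rw [e, this.resolve_right f, zero_smul])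
  obtain ⟨a, b, hab⟩ := span2 hI (h2 v hv) (h1 _ (h2 v hv)) y0 ind hv
  have := e _ (h2 v hv)
  rw [s2, map_zero, zero_add] at this
  exact y0 (by rw [hab]; simp [s2, this])

theorem S2.comm_I (h : S2 p P π) (hg : g ∈ P) (hg' : g' ∈ P) (e : T g = θ • 1) (e' : T g' = θ • 1)
    (θ0 : θ ≠ 0) (hi : Irr θ ρ) (hr : ρ' = 2 ∨ ρ' = θ ^ 2 - 2)
    (hc : Cp ((T (g * g')).eigenspace ρ) ((T (g * g')).eigenspace ρ')) :
    ∀ v ∈ (T (g * g')).eigenspace ρ', g.1 (g'.1 v) = g'.1 (g.1 v) := by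
  have A := PU.of e e' ρ
  have B := PU.of e e' ρ'
  set I := (T (g * g')).eigenspace ρ'
  have fin : (∀ v ∈ I, (cm g g').1 v = v) → ∀ v ∈ I, g.1 (g'.1 v) = g'.1 (g.1 v) := fun f v hv => by
    simpa [um] using f _ (B.u2 _ (B.u1 v hv).1).1
  have four : θ ^ 2 = 4 → ∀ v ∈ I, g.1 (g'.1 v) = g'.1 (g.1 v) := fun h4 v hv => by
    obtain ⟨ε, hε, rfl⟩ : ∃ ε : k, ε * ε = 1 ∧ θ = 2 * ε := ⟨θ / 2, by
      have := h.two; field_simp; linear_combination h4, by have := h.two; field_simp⟩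
    have sq : ∀ z : (End k V)ˣ, T z = (2 * ε) • 1 → ∀ v, (z.1 - ε • 1) ((z.1 - ε • 1) v) = 0 :=
      fun z ez v => by
      have := LinearMap.congr_fun (sq_of_T ez) v
      simp only [End.mul_apply, LinearMap.sub_apply, LinearMap.smul_apply, End.one_apply, map_sub,
        map_smul] at this ⊢
      linear_combination (norm := module) this + hε • v
    have m : ∀ z : (End k V)ˣ, z ∈ sU I → ∀ v ∈ I, (z.1 - ε • 1) v ∈ I := fun z hz v hv =>
      I.sub_mem (hz v hv).1 (I.smul_mem _ hv)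
    have an : ∀ v ∈ I, (g.1 - ε • 1) ((g'.1 - ε • 1) v) + (g'.1 - ε • 1) ((g.1 - ε • 1) v) = 0 :=
      fun v hv => by
      have := LinearMap.congr_fun (swap_eq e e') v
      have r : ρ' = 2 := hr.elim id fun f => by rw [f, h4]; norm_num
      simp only [End.mul_apply, LinearMap.sub_apply, LinearMap.smul_apply, End.one_apply, map_sub,
        map_smul, LinearMap.add_apply, B.t3 v hv, r] at this ⊢
      linear_combination (norm := module) this - (2 * hε) • v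
    have a1 := prod2 hc.d2 (m g B.u1) (m g' B.u2) (sq g e) (sq g' e') an v hv
    have a2 := an v hv
    rw [a1, zero_add] at a2
    simp only [LinearMap.sub_apply, LinearMap.smul_apply, End.one_apply, map_sub, map_smul] at a1 a2
    linear_combination (norm := module) a1 - a2
  by_cases γ4 : ga θ ρ ^ 2 = 4
  swap
  · exact fin (h.pp_triv p hc (comm_mem hg hg') A.uc B.uc A.tc γ4 (ga_red hr ▸ B.tc))
  have γ : ga θ ρ = -2 := (sq_eq_sq_iff_eq_or_eq_neg.1 (show _ = (2 : k) ^ 2 by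
    rw [γ4]; norm_num)).resolve_left (ga_ne e e' hi.1 hi.2.1)
  by_cases θ1 : θ ^ 2 = 1
  · refine four ?_
    obtain ⟨-, -, κ, a1, a2, a3, a4, a5⟩ := hi
    have h2 := h.two
    have h4 := h.four_ne
    rw [ga] at γ
    rw [γ] at a5
    rw [θ1] at γ ⊢
    have : ρ ^ 2 = ρ - 2 := by linear_combination γ
    clear * - this a2 a5 h2 h4
    rcases a5 with b | b | ⟨rfl, b⟩ | ⟨rfl, b⟩
    · grind
    · grind
    · grind
    · rcases a2 with a | a | ⟨a', a⟩ | ⟨-, a⟩ <;> grind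
  have sd : ∀ r : k, cm g g' * (g * cm g g' * g⁻¹) ∈ sU ((T (g * g')).eigenspace r) := fun r =>
    have C := PU.of e e' r
    (sU _).mul_mem C.uc ((sU _).mul_mem ((sU _).mul_mem C.u1 C.uc) ((sU _).inv_mem C.u1))
  have f := h.pp_triv p hc (d_mem hg hg') (sd ρ) (sd ρ') A.td (fun f => by
    rw [γ] at f
    exact mul_ne_zero (mul_ne_zero (mul_ne_zero h.four_ne h.four_ne) (pow_ne_zero 2 θ0))
      (sub_ne_zero.2 θ1) (by linear_combination f)) (B.td.congr rfl (by rw [ga_red hr]; ring))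
  have t2 : Tr I (cm g g') 2 := ga_red hr ▸ B.tc
  have uc := B.uc
  refine fin fun v hv => ?_
  generalize cm g g' = d at *
  have k1 : ∀ y ∈ I, g.1 (d.1 y) - g.1 y = -(d.1 (g.1 y) - g.1 y) := fun y hy => by
    have a := congrArg d⁻¹.1 (f _ (B.u1 y hy).1)
    have b := t2 _ (B.u1 y hy).1
    simp only [um, ui, T, LinearMap.add_apply] at a b
    linear_combination (norm := module) a + b
  have a1 := k1 v hv
  have a2 := congrArg g⁻¹.1 (k1 _ (B.u1 v hv).2)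
  have a3 := LinearMap.congr_fun e v
  have a4 := LinearMap.congr_fun e (d.1 v)
  have a5 := congrArg d.1 a3
  simp only [T, LinearMap.add_apply, LinearMap.smul_apply, End.one_apply, map_sub, map_neg, ui, iu,
    map_add, map_smul] at a2 a3 a4 a5
  exact smul_right_injective V (mul_ne_zero h.two θ0) (by
    simp only
    linear_combination (norm := module) a1 + a2 - a4 - a5 + (2 : k) • a3)

/-- the pair lemma -/
theorem S2.pair_cases (h : S2 p P π) (hg : g ∈ P) (hg' : g' ∈ P) (e : T g = θ • 1)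
    (e' : T g' = θ • 1) (θ0 : θ ≠ 0) : g * g' = g' * g ∨ ∃ ρ : k, Irr θ ρ ∧ (T (g * g') = ρ • 1 ∨
      (p = 5 ∧ θ ^ 2 = 1 ∧ ρ = -2 ∧ T (g * g') ≠ ρ • 1 ∧
        (T (g * g') - ρ • 1) * (T (g * g') - ρ • 1) = 0) ∨
      ∃ ρ' : k, ρ' ≠ ρ ∧ Cp ((T (g * g')).eigenspace ρ) ((T (g * g')).eigenspace ρ') ∧
        (Irr θ ρ' ∨ (ρ' = 2 ∨ ρ' = θ ^ 2 - 2) ∧
          ∀ v ∈ (T (g * g')).eigenspace ρ', g.1 (g'.1 v) = g'.1 (g.1 v))) := by
  by_cases H : ∀ (ρ : k) (v : V), v ≠ 0 → T (g * g') v = ρ • v → ρ = 2 ∨ ρ = θ ^ 2 - 2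
  · exact Or.inl (h.red hg hg' e e' θ0 H)
  push Not at H
  obtain ⟨ρ, v0, hv0, hρ, r1, r2⟩ := H
  refine Or.inr ⟨ρ, ?_⟩
  obtain ⟨v, w, hv, hw, vne, vw, A1, A2, hd | hd⟩ := h.dimU e e' hv0 hρ r1 r2
  · exact ⟨h.pair_ex hg hg' e e' θ0 hv0 hρ r1 r2 (Or.inl hd), Or.inl hd⟩
  obtain ⟨c1, c2⟩ := xi_comm e e'
  obtain ⟨ν, hν⟩ : ∃ ν, T (g * g') = ρ • 1 + ν := ⟨T (g * g') - ρ • 1, by abel⟩
  have hU : ∀ z, z ∈ (T (g * g')).eigenspace ρ ↔ ν z = 0 := fun z => by
    simp [End.mem_eigenspace_iff, hν]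
  have n1 : g.1 * ν = ν * g.1 := by simpa [hν, add_mul, mul_add] using c1.symm
  have n2 : g'.1 * ν = ν * g'.1 := by simpa [hν, add_mul, mul_add] using c2.symm
  have dI : finrank k (LinearMap.range ν) = 2 := by
    have := LinearMap.finrank_range_add_finrank_ker ν
    rw [show LinearMap.ker ν = (T (g * g')).eigenspace ρ from Submodule.ext fun z => (hU z).symm,
      hd, h.dim] at this
    omega
  have sI : ∀ z : (End k V)ˣ, z.1 * ν = ν * z.1 → z ∈ sU (LinearMap.range ν) := by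
    rintro z hz _ ⟨a, rfl⟩
    exact ⟨⟨z.1 a, (LinearMap.congr_fun hz a).symm⟩,
      ⟨z⁻¹.1 a, LinearMap.congr_fun (comm_inv hz.symm) a⟩⟩
  by_cases dj : ∀ z ∈ (T (g * g')).eigenspace ρ, z ∈ LinearMap.range ν → z = 0
  · have hc := cp_of h.dim hd dI dj
    obtain ⟨ρ', t⟩ := h.trI hc (P.mul_mem hg hg') ((sU _).mul_mem (sI g n1) (sI g' n2)) hv hw vne vw
      (A1.mul A2)
    obtain ⟨a, ha, a0⟩ := ne2 dI
    have ne : ρ' ≠ ρ := fun f => a0 (dj a (End.mem_eigenspace_iff.2 (f ▸ t a ha)) ha)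
    have eI : LinearMap.range ν = (T (g * g')).eigenspace ρ' := le_antisymm
      (fun z hz => End.mem_eigenspace_iff.2 (t z hz)) fun z hz => by
      have := End.mem_eigenspace_iff.1 hz
      refine ⟨(ρ' - ρ)⁻¹ • z, smul_right_injective V (sub_ne_zero.2 ne) ?_⟩
      simp only [hν, LinearMap.add_apply, LinearMap.smul_apply, End.one_apply] at this
      simp only [map_smul, smul_smul, mul_inv_cancel₀ (sub_ne_zero.2 ne), one_smul]
      linear_combination (norm := module) this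
    rw [eI] at hc ha
    have i1 := h.pair_ex hg hg' e e' θ0 hv0 hρ r1 r2 (Or.inr ⟨_, hc⟩)
    refine ⟨i1, Or.inr (Or.inr ⟨ρ', ne, hc, ?_⟩)⟩
    by_cases hr : ρ' = 2 ∨ ρ' = θ ^ 2 - 2
    · exact Or.inr ⟨hr, h.comm_I hg hg' e e' θ0 i1 hr hc⟩
    · push Not at hr
      exact Or.inl (h.pair_ex hg hg' e e' θ0 a0 (End.mem_eigenspace_iff.1 ha) hr.1 hr.2
        (Or.inr ⟨_, hc.symm⟩))
  push Not at dj
  obtain ⟨z, hz, hz', z0⟩ := dj
  have A := PU.of e e' ρ
  have eU : LinearMap.range ν = (T (g * g')).eigenspace ρ := by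
    set J := LinearMap.range ν ⊓ (T (g * g')).eigenspace ρ
    obtain ⟨l, y, hy, y0, gy⟩ := exists_eigv (U := J) (g := g)
      (fun a ha => ⟨⟨(sI g n1 a ha.1).1, (A.u1 a ha.2).1⟩, ⟨(sI g n1 a ha.1).2, (A.u1 a ha.2).2⟩⟩)
      (Tr.of e _) ⟨hz', hz⟩ z0
    refine (Submodule.eq_of_le_of_finrank_le (fun a ha => ?_) (by omega)).symm
    obtain ⟨s, t, rfl⟩ := span2 hd hy.2 (A.u2 y hy.2).1 y0 (fun c f =>
      noc e e' r1 r2 (End.mem_eigenspace_iff.1 hy.2) y0 gy f) ha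
    exact Submodule.add_mem _ (Submodule.smul_mem _ _ hy.1) (Submodule.smul_mem _ _ (sI g' n2 y hy.1).1)
  have νν : ν * ν = 0 := LinearMap.ext fun a => (hU _).1 (eU ▸ ⟨a, rfl⟩)
  have no : ¬ (g.1 * g'.1 - g'.1 * g.1) * ν = 0 := fun f => ga_ne e e' r1 r2 (by
    have : ∀ a ∈ (T (g * g')).eigenspace ρ, g.1 (g'.1 a) = g'.1 (g.1 a) := fun a ha => by
      obtain ⟨b, rfl⟩ : a ∈ LinearMap.range ν := eU ▸ ha
      exact sub_eq_zero.1 (LinearMap.congr_fun f b)
    have t := A.tc v hv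
    rw [T_eig vne (c := 1) (by
      simp only [um, one_smul]
      rw [this _ (A.u1 _ (A.u2 v hv).2).2, iu, iu])] at t
    rw [← smul_left_injective k vne t]; norm_num)
  have ρ4 : ρ ^ 2 = 4 := by
    by_contra f
    have := congrArg (g⁻¹.1 * ·) (h.sieg (P.mul_mem hg hg') hg e θ0 hν νν n1 f)
    exact no (by simpa only [nc k V] using this)
  obtain rfl : ρ = -2 := (sq_eq_sq_iff_eq_or_eq_neg.1 (show _ = (2 : k) ^ 2 by
    rw [ρ4]; norm_num)).resolve_left r1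
  have θ4 : θ ^ 2 = -4 := by
    by_contra f
    have := congrArg (g.1 * ·) (h.sieg (P.mul_mem (P.inv_mem hg) hg') hg e θ0 (s := θ ^ 2 + 2)
      (ν := -ν) (by rw [T_inv_mul e e', hν]; module) (by simp [νν]) (by simp [n1]) fun f' =>
        mul_ne_zero (pow_ne_zero 2 θ0) (sub_ne_zero.2 f) (by linear_combination f'))
    refine no ?_
    simp only [nc k V] at this ⊢
    linear_combination (norm := module) -this
  have h5 : (5 : k) = 0 := by
    by_contra f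
    have := congrArg (fun X => g⁻¹.1 * (g⁻¹.1 * X)) (h.sieg (P.mul_mem hg (P.mul_mem hg hg')) hg e θ0
      (s := -3 * θ) (ν := θ • ν) (by
        have := T_mul_add g (g * g')
        rw [show g * (g * g')⁻¹ = g * g'⁻¹ * g⁻¹ by group, T_conj, T_inv, e', hν, inv_of_T e] at this
        simp only [nc k V, inv_of_T e, n1, sq_of_T e] at this ⊢
        linear_combination (norm := module) this) (by simp [νν]) (by simp [n1]) fun f' =>
        mul_ne_zero (mul_ne_zero h.two h.four_ne) f (by linear_combination 9 * θ4 - f'))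
    refine no (smul_right_injective _ θ0 ?_)
    simp only [nc k V, smul_zero] at this ⊢
    linear_combination (norm := module) this
  have θ1 : θ ^ 2 = 1 := by linear_combination θ4 - h5
  refine ⟨⟨r1, r2, 5, Or.inr (Or.inl θ1), ?_, ?_, ?_, ?_⟩, Or.inr (Or.inl ⟨eq_of_cast (k := k) (n := 5)
    (by decide) (by exact_mod_cast h5), θ1, rfl, fun f => ?_, by rw [hν]; simpa using νν⟩)⟩
  · exact Or.inr (Or.inr (Or.inr ⟨rfl, by linear_combination h5⟩))
  · exact Or.inr (Or.inr (Or.inr ⟨rfl, by rw [θ1]; linear_combination 11 * h5⟩))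
  · exact Or.inr (Or.inr (Or.inr ⟨rfl, by linear_combination (81 * θ ^ 2 + 54) * θ1 + 11 * h5⟩))
  · exact Or.inr (Or.inl (by rw [θ1]; linear_combination 7 * h5))
  · rw [hν, add_eq_left] at f
    exact no (by simp [f])

theorem St.nsc (h : St P π) (hg : g ∈ P) (e : T g = θ • 1) (θ0 : θ ≠ 0) (h4 : θ ^ 2 ≠ 4) : ¬ Sc g := by
  rintro ⟨c, hc⟩
  have a := h.four hg hc
  have b := sq_of_T e
  have : c * c = θ * c - 1 := h.sc' (by
    simp only [hc, nc k V, smul_smul] at b; rw [b]; module)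
  exact mul_ne_zero (pow_ne_zero 2 θ0) (sub_ne_zero.2 h4) (by grind)

theorem S2.quad0 (h : S2 p P π) (hg : g ∈ P) (e : T g = θ • 1) :
    θ = 0 ∨ θ ^ 2 = 4 ∨ θ ^ 2 = 1 ∨ θ ^ 2 = 2 ∨ θ ^ 4 - 3 * θ ^ 2 + 1 = 0 := by
  by_contra! hh
  refine h.nsc hg e hh.1 hh.2.1 (h.comm_class (X := {x | x ∈ P ∧ T x = θ • 1}) (fun _ hx => hx.1)
    (fun _ hg _ => T_conj_mem hg) (fun x hx y hy => ⟨1, ?_⟩) ⟨hg, e⟩)
  rw [one_smul]
  refine congrArg Units.val ((h.pair_cases hx.1 hy.1 hx.2 hy.2 hh.1).resolve_right ?_)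
  rintro ⟨s, ⟨-, -, κ, a, -⟩, -⟩
  unfold Ex at a
  tauto

end Cfsg.Agent.H6.L4
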