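import Cfsg.Agent.H6.L4.P3
import Cfsg.Agent.H1.ZD.TR

/-! No quadratic elements of projective order four. -/

set_option autoImplicit false
set_option linter.unusedSimpArgs false
set_option linter.unusedSectionVars false
set_option linter.unusedVariables false

namespace Cfsg.Agent.H6.L4

open Module Cfsg.Agent.H8.M3
open Cfsg.Agent.H6.S4 hiding St S2 X3 Quad Pair3 Beta

universe u

variable {k V : Type*} [Field k] [AddCommGroup V] [Module k V] [FiniteDimensional k V]
  {G : Type u} [Group G] {P : Subgroup (End k V)ˣ} {π : P →* G} {p : ℕ}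
  {g g' x y u d : (End k V)ˣ} {θ ρ ρ' s t : k} {N N' ν : End k V} {U I : Submodule k V}

theorem sn_baer [Finite G] (hG : SN G) (Cl : Set G) (h2 : ∀ x ∈ Cl, x * x = 1)
    (hc : ∀ g, ∀ x ∈ Cl, g * x * g⁻¹ ∈ Cl) (hp : ∀ x ∈ Cl, ∀ y ∈ Cl, ∃ n : ℕ, (x * y) ^ 2 ^ n = 1) :
    ∀ x ∈ Cl, x = 1 := fun x hx => by
  have hP := H3.ZD.baer Cl h2 (fun x hx y hy => by
    have := hc y x hx
    rwa [inv_eq_of_mul_eq_one_right (h2 y hy)] at this) hp
  have hn : (Subgroup.closure Cl).Normal := ⟨fun n hn g => by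
    induction hn using Subgroup.closure_induction with
    | mem y hy => exact Subgroup.subset_closure (hc g y hy)
    | one => simp
    | mul a b _ _ ha hb => simpa [mul_assoc] using Subgroup.mul_mem _ ha hb
    | inv a _ ha => simpa [mul_assoc] using Subgroup.inv_mem _ ha⟩
  rcases hG.normal_cases _ hn with e | e
  · exact Subgroup.mem_bot.1 (e ▸ Subgroup.subset_closure hx)
  · have : Fact (Nat.Prime 2) := ⟨Nat.prime_two⟩
    have := hG.simple
    rw [e] at hP
    have := (hP.of_equiv Subgroup.topEquiv).center_nontrivial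
    obtain ⟨⟨z, hz⟩, z1⟩ := exists_ne (1 : Subgroup.center G)
    exact absurd (Subtype.ext (hG.center_eq fun g => Subgroup.mem_center_iff.1 hz g)) z1

variable [Fact p.Prime] [CharP k p] [IsAlgClosed k]

theorem S2.n4 (h : S2 p P π) (hg : g ∈ P) (e : T g = θ • 1) (h2 : θ ^ 2 = 2) : False := by
  have := h.finG
  have θ0 : θ ≠ 0 := by rintro rfl; exact h.two (by simpa using h2.symm)
  have sq : ∀ z : (End k V)ˣ, T z = θ • 1 → (z * z).1 = θ • z.1 - 1 ∧ z * z * (z * z) = -1 :=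
    fun z e => ⟨sq_of_T e, Units.ext (by
      simp only [nc k V, sq_of_T e, sqm_of_T e]
      linear_combination (norm := module) h2 • (θ • z.1 - 1))⟩
  have := sn_baer h.sn {j | ∃ x : P, T x.1 = θ • 1 ∧ j = π (x * x)} ?_ ?_ ?_ _ ⟨⟨g, hg⟩, e, rfl⟩
  · obtain ⟨c, hc⟩ := (h.ker _).1 this
    refine h.nsc hg e θ0 (fun f => h.two (by linear_combination h2 - f)) ⟨θ⁻¹ * (c + 1), ?_⟩
    have := (sq g e).1
    simp only [Subgroup.coe_mul] at hc
    rw [hc] at this
    rw [mul_smul, eq_comm, inv_smul_eq_iff₀ θ0]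
    linear_combination (norm := module) this
  · rintro _ ⟨x, ex, rfl⟩
    rw [← map_mul, h.ker]
    simpa only [Subgroup.coe_mul, (sq x ex).2] using sc_neg_one
  · rintro a _ ⟨x, ex, rfl⟩
    obtain ⟨a, rfl⟩ := h.surj a
    exact ⟨a * x * a⁻¹, (T_conj_mem a.2 ⟨x.2, ex⟩).2, by simp [mul_assoc]⟩
  rintro _ ⟨⟨x, hx⟩, ex, rfl⟩ _ ⟨⟨y, hy⟩, ey, rfl⟩
  refine ⟨2, ?_⟩
  rw [← map_mul, ← map_pow, h.ker]
  simp only at ex ey
  suffices (x * x * (y * y)) ^ 2 ^ 2 = 1 by
    simpa only [Subgroup.coe_mul, Subgroup.coe_pow, this] using sc_one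
  obtain ⟨x1, x2⟩ := sq x ex
  obtain ⟨y1, y2⟩ := sq y ey
  have Tz : T (x * x * (y * y)) = (2 : k) • T (x * y) - (2 : k) • 1 := by
    have i1 : (x * x)⁻¹ = -(x * x) := inv_eq_of_mul_eq_one_right (by simp [x2])
    have i2 : (y * y)⁻¹ = -(y * y) := inv_eq_of_mul_eq_one_right (by simp [y2])
    rw [T, mul_inv_rev, i1, i2, neg_mul_neg, Units.val_mul, Units.val_mul (y * y), x1, y1]
    simp only [nc k V, swap_eq ex ey]
    linear_combination (norm := module) h2 • (T (x * y) + θ • x.1 + θ • y.1 -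
      (θ ^ 2 + 2) • (1 : End k V))
  have c0 : ∀ v, T (x * y) v = (1 : k) • v → ((x * x * (y * y)) ^ 2).1 v = -v := fun v hv => by
    have := LinearMap.congr_fun (T_comm (x * x * (y * y))) v
    rw [End.mul_apply, Tz] at this
    simp only [LinearMap.sub_apply, LinearMap.smul_apply, hv, End.one_apply, one_smul, sub_self,
      map_zero] at this
    rw [← Tz] at this
    simp only [T, End.mul_apply, LinearMap.add_apply, ui] at this
    rw [_root_.sq, um]
    exact eq_neg_of_add_eq_zero_left this.symm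
  have ex4 : ∀ v, x.1 (x.1 (x.1 (x.1 v))) = -v := fun v => LinearMap.congr_fun (congrArg Units.val x2) v
  have ey4 : ∀ v, y.1 (y.1 (y.1 (y.1 v))) = -v := fun v => LinearMap.congr_fun (congrArg Units.val y2) v
  rw [show 2 ^ 2 = 2 * 2 from rfl, pow_mul]
  rcases h.pair_cases hx hy ex ey θ0 with c | ⟨ρ, i, c | ⟨-, c, -⟩ | ⟨ρ', ne, c, i' | ⟨-, i'⟩⟩⟩
  · have c : Commute x y := c
    rw [((c.mul_right c).mul_left (c.mul_right c)).mul_pow, _root_.sq (x * x), _root_.sq (y * y), x2, y2]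
    simp
  · obtain rfl := i.four h.two h2
    refine Units.ext (LinearMap.ext fun v => ?_)
    rw [_root_.sq, um, c0 v (by simp [c]), map_neg, c0 v (by simp [c])]; simp
  · exact absurd (by linear_combination c - h2) (one_ne_zero (α := k))
  · exact absurd ((i'.four h.two h2).trans (i.four h.two h2).symm) ne
  · obtain rfl := i.four h.two h2
    have B := PU.of ex ey ρ'
    refine Units.ext (c.ext (fun v hv => ?_) fun v hv => ?_)
    · rw [_root_.sq, um, c0 v (End.mem_eigenspace_iff.1 hv), map_neg,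
        c0 v (End.mem_eigenspace_iff.1 hv)]; simp
    · have k1 : ∀ v ∈ (T (x * y)).eigenspace ρ', ((x * x * (y * y)) ^ 2).1 v = v := fun v hv => by
        have m1 := fun v hv => (B.u1 v hv).1
        have m2 := fun v hv => (B.u2 v hv).1
        simp only [_root_.sq, um]
        rw [← i' _ (m1 _ (m2 _ (m2 _ hv))), ← i' _ (m2 _ (m2 _ hv)),
          ← i' _ (m1 _ (m2 _ (m2 _ (m2 _ hv)))), ← i' _ (m2 _ (m2 _ (m2 _ hv))), ey4, ex4, neg_neg]
      rw [_root_.sq, um, k1 v hv, k1 v hv]; rfl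

end Cfsg.Agent.H6.L4
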