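import Mathlib

/-! A finite search over `ℤ[τ]`, `τ² = τ + 1`. -/

set_option autoImplicit false
set_option linter.unusedSimpArgs false
set_option linter.unusedSectionVars false
set_option linter.unusedVariables false

namespace Cfsg.Agent.H6.L4.Q

abbrev Zt := ℤ × ℤ
abbrev En := Zt × Zt

def fN (n : ℕ) (f : ℕ → Bool) : Bool := Nat.casesOn n (f 0) fun m => f (Nat.succ m)

def fI (a : ℤ) (f : ℤ → Bool) : Bool :=
  Int.casesOn a (fun n => fN n fun n => f (Int.ofNat n)) fun n => fN n fun n => f (Int.negSucc n)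

def fZ (a : Zt) (f : Zt → Bool) : Bool := fI a.1 fun x => fI a.2 fun y => f (x, y)

theorem fN_eq (n : ℕ) (f : ℕ → Bool) : fN n f = f n := by cases n <;> rfl

theorem fI_eq (a : ℤ) (f : ℤ → Bool) : fI a f = f a := by cases a <;> simp [fI, fN_eq]

theorem fZ_eq (a : Zt) (f : Zt → Bool) : fZ a f = f a := by simp [fZ, fI_eq]

def ad (x y : Zt) : Zt := (x.1 + y.1, x.2 + y.2)
def sb (x y : Zt) : Zt := (x.1 - y.1, x.2 - y.2)
def sm (c : ℤ) (x : Zt) : Zt := (c * x.1, c * x.2)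
def ml (x y : Zt) : Zt := (x.1 * y.1 + x.2 * y.2, x.1 * y.2 + x.2 * y.1 + x.2 * y.2)
def nm (x : Zt) : ℤ := x.1 * x.1 + x.1 * x.2 - x.2 * x.2

def rem (x y : Zt) (f : Zt → Bool) : Bool :=
  fI (nm y) fun n => fZ (ml x (y.1 + y.2, -y.2)) fun c =>
    fZ ((2 * c.1 + n.natAbs) / (2 * n), (2 * c.2 + n.natAbs) / (2 * n)) fun q => fZ (sb x (ml q y)) f

def gc : ℕ → Zt → Zt → (Zt → Bool) → Bool
  | 0, x, _, f => f x
  | n + 1, x, y, f => bif y.1 == 0 && y.2 == 0 then f x else rem x y fun r => gc n y r f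

def dead (M : ℕ) (d : Zt) : Bool := M % (nm d).natAbs == 0

def gl (M : ℕ) : List Zt → Zt → (Zt → Bool) → Bool
  | [], d, f => f d
  | x :: l, d, f => fZ x fun x => gc 12 d x fun d' => dead M d' || gl M l d' f

abbrev Sg := List En × (List En → List Zt) × (List En → List Zt)

def srch (M : ℕ) : List Sg → List En → Zt → Bool
  | [], _, _ => false
  | s :: st, env, d => s.1.all fun e => gl M (s.2.1 (e :: env)) d fun d' =>
      ((s.2.2 (e :: env)).all fun x => rem x d' fun r => r.1 == 0 && r.2 == 0) || srch M st (e :: env) d'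

variable {k : Type*} [Field k] {τ : k}

def ev (τ : k) (x : Zt) : k := x.1 + x.2 * τ

theorem ev_ad (x y : Zt) : ev τ (ad x y) = ev τ x + ev τ y := by simp [ev, ad]; ring
theorem ev_sb (x y : Zt) : ev τ (sb x y) = ev τ x - ev τ y := by simp [ev, sb]; ring
theorem ev_sm (c : ℤ) (x : Zt) : ev τ (sm c x) = c * ev τ x := by simp [ev, sm]; ring
theorem ev_c (c : ℤ) : ev τ (c, 0) = c := by simp [ev]

variable (h : τ ^ 2 = τ + 1)
include h

theorem ev_ml (x y : Zt) : ev τ (ml x y) = ev τ x * ev τ y := by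
  simp only [ev, ml]; push_cast; linear_combination (-(x.2 : k) * y.2) * h

theorem rem_s {x y : Zt} {f : Zt → Bool} (e : rem x y f = true) :
    ∃ q r, ev τ r = ev τ x - q * ev τ y ∧ f r = true := by
  simp only [rem, fI_eq, fZ_eq] at e
  exact ⟨_, _, by rw [ev_sb, ev_ml h], e⟩

theorem gc_s (n : ℕ) {x y : Zt} {f : Zt → Bool} (e : gc n x y f = true) (hx : ev τ x = 0)
    (hy : ev τ y = 0) : ∃ d, ev τ d = 0 ∧ f d = true := by
  induction n generalizing x y with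
  | zero => exact ⟨x, hx, e⟩
  | succ n ih =>
    rw [gc] at e
    cases hb : (y.1 == 0 && y.2 == 0) <;> rw [hb] at e
    · obtain ⟨q, r, hr, e⟩ := rem_s h e
      exact ih e hy (by simp [hr, hx, hy])
    · exact ⟨x, hx, e⟩

theorem dead_s {M : ℕ} (hM : (M : k) ≠ 0) {d : Zt} (hd : ev τ d = 0) : dead M d = false := by
  rw [Bool.eq_false_iff]
  intro e
  have e1 : nm d ∣ (M : ℤ) := Int.natAbs_dvd.1 (Int.natCast_dvd_natCast.2 (Nat.dvd_of_mod_eq_zero
    (by simpa [dead] using e)))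
  obtain ⟨c, hc⟩ := e1
  have e2 : (nm d : k) = 0 := by
    simp only [ev] at hd
    simp only [nm]; push_cast
    linear_combination ((d.1 : k) + d.2 - d.2 * τ) * hd + (d.2 : k) ^ 2 * h
  apply hM
  have := congrArg (Int.cast : ℤ → k) hc
  simpa [e2] using this

theorem gl_s {M : ℕ} (hM : (M : k) ≠ 0) (l : List Zt) {d : Zt} {f : Zt → Bool}
    (e : gl M l d f = true) (hd : ev τ d = 0) (hl : ∀ x ∈ l, ev τ x = 0) :
    ∃ d, ev τ d = 0 ∧ f d = true := by
  induction l generalizing d with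
  | nil => exact ⟨d, hd, e⟩
  | cons x l ih =>
    rw [gl, fZ_eq] at e
    obtain ⟨d', h1, e⟩ := gc_s h _ e hd (hl x (by simp))
    rw [dead_s h hM h1, Bool.false_or] at e
    exact ih e h1 fun y hy => hl y (by simp [hy])

omit h in
def Ok (τ : k) (C : Prop) : List Sg → List En → Prop
  | [], _ => True
  | s :: st, env => ∃ e ∈ s.1, (∀ x ∈ s.2.1 (e :: env), ev τ x = 0) ∧
      ((∀ x ∈ s.2.2 (e :: env), ev τ x = 0) → C) ∧ Ok τ C st (e :: env)

theorem srch_s {M : ℕ} (hM : (M : k) ≠ 0) {C : Prop} (st : List Sg) {env : List En} {d : Zt}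
    (e : srch M st env d = true) (hd : ev τ d = 0) (ok : Ok τ C st env) : C := by
  induction st generalizing env d with
  | nil => simp [srch] at e
  | cons s st ih =>
    obtain ⟨x, hx, h1, h2, h3⟩ := ok
    rw [srch, List.all_eq_true] at e
    obtain ⟨d', h4, e⟩ := gl_s h hM _ (e x hx) hd h1
    rw [Bool.or_eq_true, List.all_eq_true] at e
    rcases e with e | e
    · refine h2 fun y hy => ?_
      obtain ⟨q, r, hr, e⟩ := rem_s h (e y hy)
      simp only [Bool.and_eq_true, beq_iff_eq] at e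
      simpa [ev, e.1, e.2, show (d'.1 : k) + d'.2 * τ = 0 from h4] using hr.symm
    · exact ih e h4 h3

end Cfsg.Agent.H6.L4.Q

namespace Cfsg.Agent.H6.L4.Q

/-- rational pair types `(ρ₁ + ρ₂ + 2, (1 + ρ₁) (1 + ρ₂))` -/
def L9 : List En := [((2, 0), (1, 0)), ((3, 0), (2, 0)), ((4, 0), (3, 0)), ((1, 0), (0, 0)),
  ((4, 0), (4, 0)), ((5, 0), (6, 0)), ((2, 0), (0, 0)), ((3, 0), (1, 0)), ((3, 0), (0, 0))]

/-- golden pair types -/
def L8 : List En := [((2, 1), (1, 1)), ((3, -1), (2, -1)), ((3, 1), (2, 2)), ((4, -1), (4, -2)),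
  ((4, 1), (3, 3)), ((1, 1), (0, 0)), ((5, -1), (6, -3)), ((2, -1), (0, 0))]

def no : List En → List Zt := fun _ => [(1, 0)]

def aa (z n : En) : Zt := sb (sm 4 n.1) z.1
def AA (z n1 n2 n3 n4 : En) : Zt := ad (ad (aa z n1) (aa z n2)) (ad (aa z n3) (aa z n4))
def BB (A : Zt) (z i : En) : Zt := sb A (sb (sm 8 i.1) (sm 4 z.1))
def CC (A : Zt) (z n n' : En) : Zt := sb A (sm 2 (ad (aa z n) (aa z n')))
def sq (x : Zt) : Zt := ml x x
def ro (z n1 n o : En) : List Zt := [sb o.2 (sm 9 n1.2), sb (sm 2 (sb o.1 n.1)) z.1]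

def stg (L Ls : List En) : List Sg := [
  (((6, 0), (9, 0)) :: L, fun _ => [], no),
  (L, fun | [n1, z] => [sb z.2 (sm 16 n1.2)] | _ => [], no),
  (L, fun | [o, n1, z] => ro z n1 n1 o | _ => [], no),
  (L, fun | [n2, _, n1, _] => [sb n2.2 n1.2] | _ => [], no),
  (L, fun | [o, n2, _, n1, z] => ro z n1 n2 o | _ => [], no),
  (L, fun | [n3, _, _, _, n1, _] => [sb n3.2 n1.2] | _ => [], no),
  (L, fun | [o, n3, _, _, _, n1, z] => ro z n1 n3 o | _ => [], no),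
  (L, fun | [n4, _, _, _, _, _, n1, _] => [sb n4.2 n1.2] | _ => [], no),
  (L, fun
    | [o, n4, _, n3, _, n2, _, n1, z] => ro z n1 n4 o ++ [sb (sm 256 n1.2)
      (ad (sq (ad (AA z n1 n2 n3 n4) (sb (sm 2 z.1) (12, 0)))) (sb (sm 48 z.1) (144, 0)))]
    | _ => [], no),
  (L, fun | [i1, _, _, _, _, _, _, _, n1, _] => [sb i1.2 (sm 4 n1.2)] | _ => [], no),
  (L, fun
    | [i2, i1, _, n4, _, n3, _, n2, _, n1, z] => [sb i2.2 (sm 4 n1.2),
      sb (sq (CC (AA z n1 n2 n3 n4) z n1 n2))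
        (ml (BB (AA z n1 n2 n3 n4) z i1) (BB (AA z n1 n2 n3 n4) z i2))]
    | _ => [], no),
  (L, fun
    | [i3, i2, i1, _, n4, _, n3, _, n2, _, n1, z] => [sb i3.2 (sm 4 n1.2),
      sb (ad (ad (BB (AA z n1 n2 n3 n4) z i1) (BB (AA z n1 n2 n3 n4) z i2))
        (BB (AA z n1 n2 n3 n4) z i3)) (AA z n1 n2 n3 n4),
      sb (sq (CC (AA z n1 n2 n3 n4) z n1 n3))
        (ml (BB (AA z n1 n2 n3 n4) z i2) (BB (AA z n1 n2 n3 n4) z i3)),
      sb (sq (CC (AA z n1 n2 n3 n4) z n1 n4))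
        (ml (BB (AA z n1 n2 n3 n4) z i3) (BB (AA z n1 n2 n3 n4) z i1))]
    | _ => [], fun
    | [i3, i2, i1, _, n4, _, n3, _, n2, _, n1, z] => [(5, 0), BB (AA z n1 n2 n3 n4) z i1,
      BB (AA z n1 n2 n3 n4) z i2, BB (AA z n1 n2 n3 n4) z i3, sb n1.2 (4, 0), sb z.1 (1, 0)]
    | _ => []),
  (Ls, fun _ => [], no),
  (Ls, fun _ => [], no),
  (Ls, fun _ => [], no),
  (Ls, fun
    | [s3, s2, s1, s0, i3, i2, i1, _, n4, _, n3, _, n2, _, n1, z] =>
      [sb (sm 2 (sq (sb (ad s2.1 s3.1) (ad s0.1 s1.1)))) (BB (AA z n1 n2 n3 n4) z i1),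
      sb (sm 2 (sq (sb (ad s1.1 s3.1) (ad s0.1 s2.1)))) (BB (AA z n1 n2 n3 n4) z i2),
      sb (sm 2 (sq (sb (ad s1.1 s2.1) (ad s0.1 s3.1)))) (BB (AA z n1 n2 n3 n4) z i3)]
    | _ => [], no)]

def L5 : List En := [((0, 0), (0, 0)), ((1, 0), (0, 0)), ((2, 0), (0, 0)), ((3, 0), (0, 0)),
  ((4, 0), (0, 0))]

theorem run7 : srch (30 ^ 30) (stg (L9 ++ L8) (((0, 0), (0, 0)) :: ((6, 0), (9, 0)) :: (L9 ++ L8)))
    [] (0, 0) = true := by
  decide +kernel

theorem run5 : srch (6 ^ 30) (stg L9 L5) [] (5, 0) = true := by decide +kernel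

end Cfsg.Agent.H6.L4.Q
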