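import Cfsg.Agent.H6.L4.Q1

/-! The numerical constraints on an element of order three next to `SL_2(3) × 1`. -/

set_option autoImplicit false
set_option linter.unusedSimpArgs false
set_option linter.unusedSectionVars false
set_option linter.unusedVariables false

namespace Cfsg.Agent.H6.L4.Q

variable {k : Type*} [Field k] {τ : k}

def In (τ : k) (L : List En) (r N : k) : Prop := ∃ e ∈ L, ev τ e.1 = r ∧ ev τ e.2 = N

theorem alg (h : τ ^ 2 = τ + 1) (h2 : (2 : k) ≠ 0) {M : ℕ} (hM : (M : k) ≠ 0) {L Ls : List En}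
    {d0 : Zt} (run : srch M (stg L Ls) [] d0 = true) (hd : ev τ d0 = 0) {x m a b c S t : k}
    (hS : S = a ^ 2 + b ^ 2 + c ^ 2) (hz : In τ (((6, 0), (9, 0)) :: L) (-4 * m) (16 * x))
    (o1 : In τ L (2 * S - 2 * (a * b + b * c + c * a) - 3 * m) (9 * x))
    (o2 : In τ L (2 * S - 2 * (a * b - b * c - c * a) - 3 * m) (9 * x))
    (o3 : In τ L (2 * S - 2 * (-a * b + b * c - c * a) - 3 * m) (9 * x))
    (o4 : In τ L (2 * S - 2 * (-a * b - b * c + c * a) - 3 * m) (9 * x))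
    (n1 : In τ L (2 * S - 2 * (a * b + b * c + c * a) - m) x)
    (n2 : In τ L (2 * S - 2 * (a * b - b * c - c * a) - m) x)
    (n3 : In τ L (2 * S - 2 * (-a * b + b * c - c * a) - m) x)
    (n4 : In τ L (2 * S - 2 * (-a * b - b * c + c * a) - m) x)
    (i1 : In τ L (4 * S - 4 * a ^ 2 - 2 * m) (4 * x))
    (i2 : In τ L (4 * S - 4 * b ^ 2 - 2 * m) (4 * x))
    (i3 : In τ L (4 * S - 4 * c ^ 2 - 2 * m) (4 * x))
    (R4 : 16 * x = (8 * S - 2 * m - 3) ^ 2 - 12 * m - 9)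
    (s0 : ∃ N, In τ Ls (t - (a + b + c)) N) (s1 : ∃ N, In τ Ls (t - (a - b - c)) N)
    (s2 : ∃ N, In τ Ls (t - (-a + b - c)) N) (s3 : ∃ N, In τ Ls (t - (-a - b + c)) N) :
    (5 : k) = 0 ∧ a = 0 ∧ b = 0 ∧ c = 0 ∧ x = 4 ∧ m = 1 := by
  have h32 : (32 : k) ≠ 0 := fun e => pow_ne_zero 5 h2 (by linear_combination e)
  have o : (1 : k) ≠ 0 := one_ne_zero
  obtain ⟨z, z0, z1, z2⟩ := hz
  obtain ⟨o1, o10, o11, o12⟩ := o1
  obtain ⟨o2, o20, o21, o22⟩ := o2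
  obtain ⟨o3, o30, o31, o32⟩ := o3
  obtain ⟨o4, o40, o41, o42⟩ := o4
  obtain ⟨n1, n10, n11, n12⟩ := n1
  obtain ⟨n2, n20, n21, n22⟩ := n2
  obtain ⟨n3, n30, n31, n32⟩ := n3
  obtain ⟨n4, n40, n41, n42⟩ := n4
  obtain ⟨i1, i10, i11, i12⟩ := i1
  obtain ⟨i2, i20, i21, i22⟩ := i2
  obtain ⟨i3, i30, i31, i32⟩ := i3
  obtain ⟨-, s0, s00, s01, -⟩ := s0
  obtain ⟨-, s1, s10, s11, -⟩ := s1
  obtain ⟨-, s2, s20, s21, -⟩ := s2
  obtain ⟨-, s3, s30, s31, -⟩ := s3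
  have n : ∀ {C : Prop}, (∀ x ∈ [((1, 0) : Zt)], ev τ x = 0) → C := fun e =>
    absurd (e (1, 0) (by simp)) (by simp [ev])
  refine srch_s h hM _ run hd ⟨z, z0, ?_, n, n1, n10, ?_, n, o1, o10, ?_, n, n2, n20, ?_, n,
    o2, o20, ?_, n, n3, n30, ?_, n, o3, o30, ?_, n, n4, n40, ?_, n, o4, o40, ?_, n,
    i1, i10, ?_, n, i2, i20, ?_, n, i3, i30, ?_, ?_, s0, s00, ?_, n, s1, s10, ?_, n,
    s2, s20, ?_, n, s3, s30, ?_, n, trivial⟩
  all_goals simp only [ro, sq, CC, BB, AA, aa, List.forall_mem_cons, List.not_mem_nil,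
    List.cons_append, List.nil_append, IsEmpty.forall_iff, implies_true, and_true, ev_ad, ev_sb,
    ev_sm, ev_c, ev_ml h, z1, z2, o11, o12, o21, o22, o31, o32, o41, o42, n11, n12, n21, n22, n31,
    n32, n41, n42, i11, i12, i21, i22, i31, i32, s01, s11, s21, s31, Int.cast_ofNat, Int.cast_one,
    false_imp_iff]
  all_goals subst hS
  all_goals try ((try refine ⟨?_, ?_⟩) <;> (try refine ⟨?_, ?_⟩) <;> (try refine ⟨?_, ?_⟩) <;> ring1)
  · exact ⟨by ring, by ring, by linear_combination 16 * R4⟩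
  · rintro ⟨e5, ea, eb, ec, ex, em⟩
    have f : ∀ u : k, 32 * u ^ 2 = 0 → u = 0 := fun u e =>
      pow_eq_zero_iff two_ne_zero |>.1 ((mul_eq_zero.1 e).resolve_left h32)
    exact ⟨e5, f a (by linear_combination ea), f b (by linear_combination eb),
      f c (by linear_combination ec), by linear_combination ex, by linear_combination em + m * e5⟩

end Cfsg.Agent.H6.L4.Q
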