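import Cfsg.Agent.H6.L4.P4
import Cfsg.Agent.H6.L4.Q2

/-! Numerical invariants of pairs of quadratic elements of order three. -/

set_option autoImplicit false
set_option linter.unusedSimpArgs false
set_option linter.unusedSectionVars false
set_option linter.unusedVariables false

namespace Cfsg.Agent.H6.L4

open Module Cfsg.Agent.H8.M3 Matrix
open Cfsg.Agent.H6.S4 hiding St S2 X3 Quad Pair3 Beta
open Q (In L9 L8 ev)

universe u

variable {k V : Type*} [Field k] [AddCommGroup V] [Module k V] [FiniteDimensional k V]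
  {G : Type u} [Group G] {P : Subgroup (End k V)ˣ} {π : P →* G} {p : ℕ}
  {g g' x y y' u d : (End k V)ˣ} {θ ρ ρ' s t τ : k} {N N' ν F : End k V} {U I : Submodule k V}

theorem Cp.bas (hd : finrank k V = 4) (hc : Cp U I) {v w a b : V} (hv : v ∈ U) (hw : w ∈ U)
    (v0 : v ≠ 0) (vw : ∀ c : k, w ≠ c • v) (ha : a ∈ I) (hb : b ∈ I) (a0 : a ≠ 0)
    (ab : ∀ c : k, b ≠ c • a) : ∃ B : Basis (Fin 4) k V, B 0 = v ∧ B 1 = w ∧ B 2 = a ∧ B 3 = b := by
  have li : LinearIndependent k ![v, w, a, b] := Fintype.linearIndependent_iff.2 fun x hx i => by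
    have e : x 0 • v + x 1 • w + x 2 • a + x 3 • b = 0 := by simpa [Fin.sum_univ_four] using hx
    have z := hc.dj (x 0 • v + x 1 • w) (U.add_mem (U.smul_mem _ hv) (U.smul_mem _ hw)) (by
      rw [show x 0 • v + x 1 • w = -(x 2 • a + x 3 • b) by linear_combination (norm := module) e]
      exact I.neg_mem (I.add_mem (I.smul_mem _ ha) (I.smul_mem _ hb)))
    have z1 := indep2 v0 vw (c' := 0) (d' := 0) (z.trans (by simp))
    have z2 := indep2 a0 ab (c := x 2) (d := x 3) (c' := 0) (d' := 0) (by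
      linear_combination (norm := module) e - z)
    fin_cases i
    exacts [z1.1, z1.2, z2.1, z2.2]
  exact ⟨basisOfLinearIndependentOfCardEqFinrank li (by simp [hd]), by simp⟩

theorem Cp.tr (hd : finrank k V = 4) (hc : Cp U I) (h1 : ∀ v ∈ U, F v = s • v)
    (h2 : ∀ v ∈ I, F v = t • v) : LinearMap.trace k V F = 2 * (s + t) := by
  obtain ⟨v, hv, v0⟩ := ne2 hc.d1
  obtain ⟨w, hw, vw⟩ := basis2 hc.d1 v0
  obtain ⟨a, ha, a0⟩ := ne2 hc.d2
  obtain ⟨b, hb, ab⟩ := basis2 hc.d2 a0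
  obtain ⟨B, rfl, rfl, rfl, rfl⟩ := hc.bas hd hv hw v0 vw ha hb a0 ab
  rw [LinearMap.trace_eq_matrix_trace k B]
  simp [Matrix.trace, Fin.sum_univ_four, LinearMap.toMatrix_apply, h1 _ hv, h1 _ hw, h2 _ ha, h2 _ hb]
  ring

/-- the two numerical invariants -/
def Inv2 (F : End k V) (r N : k) : Prop :=
  LinearMap.trace k V F = 2 * r ∧ LinearMap.trace k V (F * F) = 2 * r ^ 2 - 4 * N

theorem Cp.inv2 (hd : finrank k V = 4) (hc : Cp U I) (h1 : ∀ v ∈ U, F v = s • v)
    (h2 : ∀ v ∈ I, F v = t • v) : Inv2 F (s + t) (s * t) :=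
  ⟨hc.tr hd h1 h2, (hc.tr hd (s := s * s) (t := t * t) (fun v hv => by simp [h1 v hv, smul_smul])
    fun v hv => by simp [h2 v hv, smul_smul]).trans (by ring)⟩

theorem PU.inv' (h : PU U g g' (-1) ρ) : PU U g g'⁻¹ (-1) (1 - ρ) :=
  ⟨h.u1, (sU U).inv_mem h.u2, h.t1, h.t2.inv, (Tr.mul' h.u1 h.t1 h.t2 h.t3).congr rfl (by ring)⟩

theorem T_inv3 (e : T g = (-1 : k) • 1) (e' : T g' = (-1 : k) • 1) :
    T (g * g'⁻¹) = 1 - T (g * g') := by
  have := T_mul_add g g'
  have e1 := inv_of_T e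
  rw [e'] at this
  simp only [nc k V, e1] at this ⊢
  linear_combination (norm := module) this

variable [Fact p.Prime] [CharP k p] [IsAlgClosed k]

theorem St.nneg (p : ℕ) [Fact p.Prime] [CharP k p] (h : St P π) (hc : Cp U I) (hg : g ∈ P)
    (hg' : g' ∈ P) (A : PU U g g' (-1) (-2)) (B : PU I g g' (-1) t) (h4 : t ^ 2 ≠ 4) : False := by
  have m : ∀ W : Submodule k V, g * g' ∈ sU W → -(g * g') ∈ sU W := fun W hW v hv => by
    simpa [-Units.val_mul] using hW v hv
  have e := h.pp_triv p hc.symm (h.neg (P.mul_mem hg hg')) (m I ((sU I).mul_mem B.u1 B.u2))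
    (m U ((sU U).mul_mem A.u1 A.u2)) B.t3.neg (by simpa using h4) (A.t3.neg.congr rfl (by ring))
  obtain ⟨v, hv, v0⟩ := ne2 hc.d1
  have f : ∀ v ∈ U, g'.1 v = -g⁻¹.1 v := fun v hv => by
    have := congrArg g⁻¹.1 (e v hv)
    simp only [Units.val_neg, LinearMap.neg_apply, um, map_neg, ui] at this
    rw [← this, neg_neg]
  have f' : g'⁻¹.1 v = -g.1 v := by
    have := congrArg g'⁻¹.1 (f _ (A.u1 v hv).1)
    rw [ui, ui, map_neg] at this
    rw [this, neg_neg]
  have a1 := A.t1 v hv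
  have a2 := A.t2 v hv
  simp only [T, LinearMap.add_apply, f v hv, f'] at a1 a2
  exact h.two (smul_left_injective k v0 (by linear_combination (norm := module) a1 + a2))

theorem St.comm3 (h : St P π) (h3 : (3 : k) ≠ 0) (hy : X3 P y) (hy' : X3 P y') (c : y * y' = y' * y) :
    y' = y ∨ y' = y⁻¹ ∨ Inv2 (1 + T (y * y')) 3 0 := by
  have key : ∀ y', X3 P y' → y * y' = y' * y → ∀ v, (1 + T (y * y')) v = (3 : k) • v →
      (y * y').1 v = v := fun y' hy' c v hv => by
    have c3 : (y * y') ^ 3 = 1 := by rw [Commute.mul_pow c, hy.cube, hy'.cube, one_mul]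
    have i : (y * y')⁻¹ = y * y' * (y * y') := inv_eq_of_mul_eq_one_right (by
      rw [← c3, pow_succ, pow_two]; group)
    have i3 : (y * y').1 ((y * y').1 ((y * y').1 v)) = v :=
      LinearMap.congr_fun (congrArg Units.val c3) v
    have := congrArg (y * y').1 hv
    simp only [T, i, LinearMap.add_apply, End.one_apply, map_add, map_smul] at hv this
    rw [um (y * y')] at hv this
    rw [i3] at this
    exact smul_right_injective V h3 (by linear_combination (norm := module) hv - this)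
  set F := 1 + T (y * y') with hF
  have c' : y'.1 * y.1 = y.1 * y'.1 := congrArg Units.val c.symm
  have FF : F * F = (3 : k) • F := by
    have c2 : ∀ X : End k V, y'.1 * (y.1 * X) = y.1 * (y'.1 * X) := fun X => by
      rw [← mul_assoc, c', mul_assoc]
    simp only [hF, T, nc k V, inv_of_T hy.2.1, inv_of_T hy'.2.1, c', c2, sq_of_T hy.2.1,
      sq_of_T hy'.2.1, sqm_of_T hy.2.1, sqm_of_T hy'.2.1]
    module
  have r1 : ∀ v ∈ LinearMap.range F, F v = (3 : k) • v := by
    rintro _ ⟨v, rfl⟩; exact LinearMap.congr_fun FF v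
  have e := F.finrank_range_add_finrank_ker
  rw [h.dim] at e
  by_cases a1 : 3 ≤ finrank k (LinearMap.range F)
  · exact Or.inr (Or.inl (eq_inv_of_mul_eq_one_right (h.tv3 (P.mul_mem hy.1 hy'.1) a1
      fun v hv => key y' hy' c v (r1 v hv))))
  by_cases a2 : 3 ≤ finrank k (LinearMap.ker F)
  · refine Or.inl (mul_inv_eq_one.1 (h.tv3 (P.mul_mem hy.1 hy'.inv.1) a2 fun v hv =>
      key _ hy'.inv (Commute.inv_right c) v ?_)).symm
    have : F v = 0 := hv
    rw [T_inv3 hy.2.1 hy'.2.1]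
    simp only [hF, LinearMap.add_apply, LinearMap.sub_apply, End.one_apply] at this ⊢
    linear_combination (norm := module) -this
  have := (cp_of h.dim (U := LinearMap.range F) (I := LinearMap.ker F) (by omega) (by omega)
    fun v a b => smul_right_injective V h3 (by simpa using (r1 v a).symm.trans b)).inv2 h.dim r1
    (t := 0) fun v hv => by simpa using hv
  exact Or.inr (Or.inr (by simpa using this))

set_option maxHeartbeats 2000000 in
theorem S2.pd (h : S2 p P π) (hq : Quad P) (h3 : (3 : k) ≠ 0) (hτ : τ ^ 2 = τ + 1) (hy : X3 P y)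
    (hy' : X3 P y') : y' = y ∨ y' = y⁻¹ ∨ ∃ r N, Inv2 (1 + T (y * y')) r N ∧
      (In τ L9 r N ∨ (5 : k) ≠ 0 ∧ In τ L8 r N) := by
  have o : (1 : k) ≠ 0 := one_ne_zero
  have gd : ∀ ρ : k, ρ ^ 2 = ρ + 1 → ρ = τ ∨ ρ = 1 - τ := fun ρ e => by
    simpa [sub_eq_zero] using (show (ρ - τ) * (ρ - (1 - τ)) = 0 by linear_combination e - hτ)
  have sc : ∀ a b : k, T (y * y') = a • 1 + b • 1 → Inv2 (1 + T (y * y')) (2 * (1 + a + b))
      ((1 + a + b) ^ 2) := fun a b e => by
    rw [show 1 + T (y * y') = (1 + a + b) • 1 by rw [e]; module]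
    constructor <;> simp [h.dim] <;> ring
  rcases h.pair_cases hy.1 hy'.1 hy.2.1 hy'.2.1 (by simp) with
    c | ⟨ρ, i, c | ⟨rfl, -, rfl, -, c⟩ | ⟨ρ', ne, c, i'⟩⟩
  · rcases h.comm3 h3 hy hy' c with e | e | e
    exacts [Or.inl e, Or.inr (Or.inl e), Or.inr (Or.inr ⟨_, _, e, Or.inl ⟨((3, 0), (0, 0)), by decide,
      by simp [ev], by simp [ev]⟩⟩)]
  · refine Or.inr (Or.inr ⟨_, _, sc ρ 0 (by simp [c]), Or.inl ?_⟩)
    rcases i.three h.two with rfl | rfl | e
    · exact ⟨((2, 0), (1, 0)), by decide, by simp [ev], by simp [ev]⟩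
    · exact ⟨((4, 0), (4, 0)), by decide, by simp [ev]; ring, by simp [ev]; ring⟩
    rcases hq _ (P.mul_mem hy.1 hy'.1) ρ c with f | f | f
    · exact absurd (by linear_combination (ρ - 1) * f - e) o
    · obtain rfl : ρ = 0 := by linear_combination f - e
      simp at f
    · obtain rfl : ρ = 3 := by linear_combination f - e
      exact ⟨((3, 0), (1, 0)), by decide, by simp [ev]; linear_combination -f, by
        simp [ev]; linear_combination (-3) * f⟩
  · have e5 : (5 : k) = 0 := by simpa using CharP.cast_eq_zero k 5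
    set ν := T (y * y') - (-2 : k) • 1 with hν
    have t0 : LinearMap.trace k V ν = 0 :=
      (LinearMap.isNilpotent_trace_of_isNilpotent ⟨2, by rw [pow_two, c]⟩).eq_zero
    refine Or.inr (Or.inr ⟨3, 1, ?_, Or.inl ⟨((3, 0), (1, 0)), by decide, by simp [ev], by simp [ev]⟩⟩)
    rw [show 1 + T (y * y') = ν - 1 by rw [hν]; module]
    refine ⟨by simp [t0, h.dim]; linear_combination (-2) * e5, ?_⟩
    rw [show (ν - 1) * (ν - 1) = 1 - (2 : k) • ν by simp only [nc k V, c]; module]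
    simp [t0, h.dim]; linear_combination (-2) * e5
  have A := PU.of hy.2.1 hy'.2.1 ρ
  have B := PU.of hy.2.1 hy'.2.1 ρ'
  refine Or.inr (Or.inr ⟨_, _, c.inv2 h.dim (s := 1 + ρ) (t := 1 + ρ')
    (fun v hv => by simp [A.t3 v hv, add_smul]) (fun v hv => by simp [B.t3 v hv, add_smul]), ?_⟩)
  have j : ρ' = 0 ∨ ρ' = 1 ∨ ρ' ^ 2 = ρ' + 1 ∨ ρ' = 2 ∨ ρ' = -1 := by
    rcases i' with i' | ⟨i' | i', -⟩
    · rcases i'.three h.two with e | e | e <;> simp [e]
    · simp [i']
    · simp [show ρ' = -1 by linear_combination i']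
  have g5 : ∀ {U I : Submodule k V} {ρ ρ' : k}, Cp U I → PU U y y' (-1) ρ → PU I y y' (-1) ρ' →
      ρ ^ 2 = ρ + 1 → (ρ' = 0 ∨ ρ' = 1 ∨ ρ' = 2 ∨ ρ' = -1) → (5 : k) ≠ 0 := by
    intro U I ρ ρ' c A B e e' e5
    obtain rfl : ρ = -2 := by
      have : (ρ + 2) ^ 2 = 0 := by linear_combination e + (ρ + 1) * e5
      linear_combination pow_eq_zero_iff two_ne_zero |>.1 this
    have n : ∀ r : k, r ^ 2 = 0 ∨ r ^ 2 = 1 → r ^ 2 ≠ 4 := fun r a b => by
      rcases a with a | a
      exacts [h.four_ne (by linear_combination a - b), h3 (by linear_combination a - b)]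
    rcases e' with rfl | rfl | rfl | rfl
    · exact h.nneg p c hy.1 hy'.1 A B (n _ (by simp))
    · exact h.nneg p c hy.1 hy'.1 A B (n _ (by simp))
    · have A' := PU.inv' A
      rw [show (1 : k) - -2 = -2 by linear_combination e5] at A'
      exact h.nneg p c hy.1 hy'.inv.1 A' (PU.inv' B) (n _ (by right; ring))
    · exact h.nneg p c hy.1 hy'.1 A B (n _ (by simp))
  have g8 : ∀ ρ ρ' : k, ρ ^ 2 = ρ + 1 → (ρ' = 0 ∨ ρ' = 1 ∨ ρ' = 2 ∨ ρ' = -1) →
      In τ L8 (1 + ρ + (1 + ρ')) ((1 + ρ) * (1 + ρ')) := by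
    intro ρ ρ' e e'
    rcases gd ρ e with rfl | rfl <;> rcases e' with rfl | rfl | rfl | rfl
    exacts [⟨((2, 1), (1, 1)), by decide, by simp [ev]; ring, by simp [ev]⟩,
      ⟨((3, 1), (2, 2)), by decide, by simp [ev]; ring, by simp [ev]; ring⟩,
      ⟨((4, 1), (3, 3)), by decide, by simp [ev]; ring, by simp [ev]; ring⟩,
      ⟨((1, 1), (0, 0)), by decide, by simp [ev], by simp [ev]⟩,
      ⟨((3, -1), (2, -1)), by decide, by simp [ev]; ring, by simp [ev]; ring⟩,
      ⟨((4, -1), (4, -2)), by decide, by simp [ev]; ring, by simp [ev]; ring⟩,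
      ⟨((5, -1), (6, -3)), by decide, by simp [ev]; ring, by simp [ev]; ring⟩,
      ⟨((2, -1), (0, 0)), by decide, by simp [ev]; ring, by simp [ev]⟩]
  have g8' : ∀ ρ ρ' : k, ρ' ^ 2 = ρ' + 1 → (ρ = 0 ∨ ρ = 1 ∨ ρ = 2 ∨ ρ = -1) →
      In τ L8 (1 + ρ + (1 + ρ')) ((1 + ρ) * (1 + ρ')) := fun ρ ρ' e e' => by
    rw [add_comm (1 + ρ), mul_comm]; exact g8 _ _ e e'
  rcases i.three h.two with rfl | rfl | e <;> rcases j with rfl | rfl | e' | rfl | rfl
  all_goals first
    | exact absurd rfl ne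
    | (left; simp [In, L9, ev]; done)
    | (left; simp [In, L9, ev]; norm_num; done)
    | exact Or.inr ⟨g5 c A B e (by simp), g8 _ _ e (by simp)⟩
    | exact Or.inr ⟨g5 c.symm B A e' (by simp), g8' _ _ e' (by simp)⟩
    | skip
  have : ρ + ρ' = 1 := by
    have : (ρ' - ρ) * (ρ + ρ' - 1) = 0 := by linear_combination e' - e
    linear_combination (mul_eq_zero.1 this).resolve_left (sub_ne_zero.2 ne)
  exact Or.inl ⟨((3, 0), (1, 0)), by decide, by simp [ev]; linear_combination -this, by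
    simp [ev]; linear_combination e - (1 + ρ) * this⟩

end Cfsg.Agent.H6.L4
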