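import Cfsg.Agent.H6.L4.Q3
import Cfsg.Agent.H9.C2.A

/-! `SL_2(3) × 1` does not occur: coordinates. -/

set_option autoImplicit false
set_option linter.unusedSimpArgs false
set_option linter.unusedSectionVars false
set_option linter.unusedVariables false

namespace Cfsg.Agent.H6.L4

open Module Cfsg.Agent.H8.M3 Matrix
open Cfsg.Agent.H6.S4 hiding St S2 X3 Quad Pair3 Beta
open Q (In L9 L8 L5 ev)
open H9.C2 (mx M4 mx_mul mx_add mx_smul mx_one mx_zero mx_trace mx_inj)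

universe u

variable {k V : Type*} [Field k] [AddCommGroup V] [Module k V] [FiniteDimensional k V]
  {G : Type u} [Group G] {P : Subgroup (End k V)ˣ} {π : P →* G} {p : ℕ}
  {g g' x y y' u d : (End k V)ˣ} {τ r N : k} {B : Basis (Fin 4) k V}
  {a1 a2 a3 a4 b1 b2 b3 b4 y0 y1 y2 y3 y4 y5 y6 y7 y8 y9 y10 y11 y12 y13 y14 y15 : k}

/-- matrices -/
noncomputable def ph (B : Basis (Fin 4) k V) : End k V ≃ₐ[k] M4 k := LinearMap.toMatrixAlgEquiv B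

theorem ph_tr (B : Basis (Fin 4) k V) (f : End k V) : LinearMap.trace k V f = (ph B f).trace :=
  LinearMap.trace_eq_matrix_trace k B f

/-- elements acting trivially on the second plane -/
def HP (P : Subgroup (End k V)ˣ) (B : Basis (Fin 4) k V) (a b c d : k) : Prop :=
  ∃ h ∈ P, ph B h.1 = mx a b 0 0 c d 0 0 0 0 1 0 0 0 0 1

theorem HP.mul (h : HP P B a1 a2 a3 a4) (h' : HP P B b1 b2 b3 b4) {c1 c2 c3 c4 : k}
    (e : c1 = a1 * b1 + a2 * b3 ∧ c2 = a1 * b2 + a2 * b4 ∧ c3 = a3 * b1 + a4 * b3 ∧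
      c4 = a3 * b2 + a4 * b4) : HP P B c1 c2 c3 c4 := by
  obtain ⟨x, hx, e1⟩ := h
  obtain ⟨y, hy, e2⟩ := h'
  obtain ⟨rfl, rfl, rfl, rfl⟩ := e
  exact ⟨x * y, P.mul_mem hx hy, by rw [Units.val_mul, map_mul, e1, e2]; mxs⟩

theorem ph_inv {M M' : M4 k} (e : ph B x.1 = M) (e' : M * M' = 1) : ph B x⁻¹.1 = M' := by
  rw [← mul_one (ph B x⁻¹.1), ← e', ← e, ← mul_assoc, ← map_mul, Units.inv_mul, map_one, one_mul]

theorem F_eq (e : T y = (-1 : k) • 1) (e' : T y' = (-1 : k) • 1) :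
    1 + T (y * y') = -((y.1 - y'.1) * (y.1 - y'.1)) := by
  simp only [T, nc k V, inv_of_T e, inv_of_T e', sq_of_T e, sq_of_T e']
  module

theorem Inv2.mat {D : M4 k} (e : T y = (-1 : k) • 1) (e' : T y' = (-1 : k) • 1)
    (h : Inv2 (1 + T (y * y')) r N) (hD : ph B y.1 = D + ph B y'.1) :
    (D * D).trace = -2 * r ∧ (D * D * (D * D)).trace = 2 * r ^ 2 - 4 * N := by
  obtain ⟨h1, h2⟩ := h
  rw [F_eq e e', ph_tr B] at h1 h2
  simp only [map_neg, map_mul, map_sub, hD, add_sub_cancel_right, neg_mul_neg, trace_neg] at h1 h2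
  exact ⟨by linear_combination -h1, h2⟩

theorem num4 {x1 x2 x3 : k} {D : M4 k} (e : D = mx x1 x2 a1 a2 x3 (-x1) a3 a4 b1 b2 0 0 b3 b4 0 0) :
    (D * D).trace = 2 * (x1 ^ 2 + x2 * x3 + (a1 * b1 + a2 * b3 + a3 * b2 + a4 * b4)) ∧
    (D * D).trace ^ 2 - 2 * (D * D * (D * D)).trace = 8 * ((a1 * a4 - a2 * a3) * (b1 * b4 - b2 * b3)) := by
  subst e
  mxs
  constructor <;> ring

theorem cz {c1 c2 c3 c4 : k} (hy : ph B y.1 = mx y0 y1 y2 y3 y4 y5 y6 y7 y8 y9 y10 y11 y12 y13 y14 y15)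
    (hx : ph B x.1 = mx c1 c2 0 0 c3 c4 0 0 0 0 1 0 0 0 0 1) (c : x * y = y * x)
    (n : (c1 - 1) * (c4 - 1) - c2 * c3 ≠ 0) : y8 = 0 ∧ y9 = 0 ∧ y12 = 0 ∧ y13 = 0 := by
  have := congrArg (fun z : (End k V)ˣ => ph B z.1) c
  simp only [Units.val_mul, map_mul, hx, hy] at this
  mxs at this
  obtain ⟨-, -, -, -, -, -, -, -, e1, e2, e3, e4⟩ := this
  exact ⟨mul_left_cancel₀ n (by linear_combination (1 - c4) * e1 + c3 * e2),
    mul_left_cancel₀ n (by linear_combination (1 - c1) * e2 + c2 * e1),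
    mul_left_cancel₀ n (by linear_combination (1 - c4) * e3 + c3 * e4),
    mul_left_cancel₀ n (by linear_combination (1 - c1) * e4 + c2 * e3)⟩

/-- admissible pair types -/
def Ix (τ r N : k) : Prop := In τ L9 r N ∨ (5 : k) ≠ 0 ∧ In τ L8 r N

theorem ph_conj (hy : ph B y.1 = mx y0 y1 y2 y3 y4 y5 y6 y7 y8 y9 y10 y11 y12 y13 y14 y15)
    (hx : ph B x.1 = mx a1 a2 0 0 a3 a4 0 0 0 0 1 0 0 0 0 1) (hd : a1 * a4 - a2 * a3 = 1) :
    ph B y.1 = mx (y0 - ((a1 * y0 + a2 * y4) * a4 - (a1 * y1 + a2 * y5) * a3))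
      (y1 - ((a1 * y1 + a2 * y5) * a1 - (a1 * y0 + a2 * y4) * a2))
      (y2 - (a1 * y2 + a2 * y6)) (y3 - (a1 * y3 + a2 * y7))
      (y4 - ((a3 * y0 + a4 * y4) * a4 - (a3 * y1 + a4 * y5) * a3))
      (-(y0 - ((a1 * y0 + a2 * y4) * a4 - (a1 * y1 + a2 * y5) * a3)))
      (y6 - (a3 * y2 + a4 * y6)) (y7 - (a3 * y3 + a4 * y7))
      (y8 - (y8 * a4 - y9 * a3)) (y9 - (y9 * a1 - y8 * a2)) 0 0
      (y12 - (y12 * a4 - y13 * a3)) (y13 - (y13 * a1 - y12 * a2)) 0 0 + ph B (x * y * x⁻¹).1 := by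
  have hi := ph_inv (M' := mx a4 (-a2) 0 0 (-a3) a1 0 0 0 0 1 0 0 0 0 1) hx (by
    mxs; exact ⟨by linear_combination hd, by ring, by ring, by linear_combination hd⟩)
  simp only [Units.val_mul, map_mul, hx, hy, hi]
  mxs
  refine ⟨?_, ?_, ?_, ?_, ?_, ?_, ?_, ?_, ?_, ?_, ?_, ?_⟩
  all_goals first | ring1 | linear_combination (-y0 - y5) * hd

variable [Fact p.Prime] [CharP k p] [IsAlgClosed k]

section
variable (h : S2 p P π) (hq : Quad P) (h3 : (3 : k) ≠ 0) (hτ : τ ^ 2 = τ + 1) (hY : X3 P y)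
  (hy : ph B y.1 = mx y0 y1 y2 y3 y4 y5 y6 y7 y8 y9 y10 y11 y12 y13 y14 y15)
include h hq h3 hτ hY hy

theorem S2.kc0 (hX : x ∈ P) (hx : ph B x.1 = mx a1 a2 0 0 a3 a4 0 0 0 0 1 0 0 0 0 1)
    (hd : a1 * a4 - a2 * a3 = 1)
    (hr : r = -((y0 - ((a1 * y0 + a2 * y4) * a4 - (a1 * y1 + a2 * y5) * a3)) ^ 2 +
      (y1 - ((a1 * y1 + a2 * y5) * a1 - (a1 * y0 + a2 * y4) * a2)) *
      (y4 - ((a3 * y0 + a4 * y4) * a4 - (a3 * y1 + a4 * y5) * a3))) -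
      (2 - a1 - a4) * (y2 * y8 + y3 * y12 + y6 * y9 + y7 * y13))
    (hN : N = (2 - a1 - a4) ^ 2 * ((y2 * y7 - y3 * y6) * (y8 * y13 - y9 * y12))) :
    x * y * x⁻¹ = y ∨ (x * y * x⁻¹ = y⁻¹ ∧ r = 6 ∧ N = 9) ∨ Ix τ r N := by
  have key : ∀ r' N', Inv2 (1 + T (y * (x * y * x⁻¹))) r' N' → r = r' ∧ N = N' := fun r' N' e => by
    obtain ⟨e1, e2⟩ := e.mat hY.2.1 (hY.conj hX).2.1 (ph_conj hy hx hd)
    obtain ⟨f1, f2⟩ := num4 (k := k) rfl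
    rw [e1] at f1
    rw [e1, e2] at f2
    refine ⟨mul_left_cancel₀ h.two ?_, mul_left_cancel₀ (pow_ne_zero 3 h.two) ?_⟩
    · linear_combination 2 * hr + f1 + 2 * (y2 * y8 + y3 * y12 + y6 * y9 + y7 * y13) * hd
    · linear_combination 8 * hN - f2 - 8 * ((y2 * y7 - y3 * y6) * (y8 * y13 - y9 * y12)) *
        (3 - 2 * a1 - 2 * a4 + a1 * a4 - a2 * a3) * hd
  rcases h.pd hq h3 hτ hY (hY.conj hX) with e | e | ⟨r', N', e, f⟩
  · exact Or.inl e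
  · refine Or.inr (Or.inl ⟨e, key 6 9 ?_⟩)
    rw [e, mul_inv_cancel, T_one, show (1 : End k V) + (2 : k) • 1 = (3 : k) • 1 by module]
    constructor <;> simp [h.dim] <;> ring
  · obtain ⟨rfl, rfl⟩ := key _ _ e
    exact Or.inr (Or.inr f)

theorem S2.kc (c0 : ¬ (y8 = 0 ∧ y9 = 0 ∧ y12 = 0 ∧ y13 = 0)) (hx : HP P B a1 a2 a3 a4)
    (hd : a1 * a4 - a2 * a3 = 1) (h4 : (a1 + a4) ^ 2 = 0 ∨ (a1 + a4) ^ 2 = 1)
    (hr : r = -((y0 - ((a1 * y0 + a2 * y4) * a4 - (a1 * y1 + a2 * y5) * a3)) ^ 2 +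
      (y1 - ((a1 * y1 + a2 * y5) * a1 - (a1 * y0 + a2 * y4) * a2)) *
      (y4 - ((a3 * y0 + a4 * y4) * a4 - (a3 * y1 + a4 * y5) * a3))) -
      (2 - a1 - a4) * (y2 * y8 + y3 * y12 + y6 * y9 + y7 * y13))
    (hN : N = (2 - a1 - a4) ^ 2 * ((y2 * y7 - y3 * y6) * (y8 * y13 - y9 * y12))) : Ix τ r N := by
  obtain ⟨x, hX, hx⟩ := hx
  have c : x * x * y * (x * x)⁻¹ = y → False := fun e => c0 (cz (x := x * x)
    (c1 := a1 * a1 + a2 * a3) (c2 := a1 * a2 + a2 * a4) (c3 := a3 * a1 + a4 * a3)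
    (c4 := a3 * a2 + a4 * a4) hy (by rw [Units.val_mul, map_mul, hx]; mxs)
    (mul_inv_eq_iff_eq_mul.1 e) fun f => by
      rcases h4 with h4 | h4
      · exact h.four_ne (by linear_combination f + h4 - (a1 * a4 - a2 * a3 + 3) * hd)
      · exact h3 (by linear_combination f + h4 - (a1 * a4 - a2 * a3 + 3) * hd))
  have i : x * x * y * (x * x)⁻¹ = x * (x * y * x⁻¹) * x⁻¹ := by group
  rcases h.kc0 hq h3 hτ hY hy hX hx hd hr hN with e | ⟨e, -⟩ | e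
  · exact (c (by rw [i, e, e])).elim
  · exact (c (by rw [i, e, show x * y⁻¹ * x⁻¹ = (x * y * x⁻¹)⁻¹ by group, e, inv_inv])).elim
  · exact e

theorem S2.kz (c0 : ¬ (y8 = 0 ∧ y9 = 0 ∧ y12 = 0 ∧ y13 = 0)) (hx : HP P B (-1) 0 0 (-1)) :
    (-4 * (y2 * y8 + y3 * y12 + y6 * y9 + y7 * y13) = 6 ∧
      16 * ((y2 * y7 - y3 * y6) * (y8 * y13 - y9 * y12)) = 9) ∨
    Ix τ (-4 * (y2 * y8 + y3 * y12 + y6 * y9 + y7 * y13))
      (16 * ((y2 * y7 - y3 * y6) * (y8 * y13 - y9 * y12))) := by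
  obtain ⟨x, hX, hx⟩ := hx
  rcases h.kc0 (r := -4 * (y2 * y8 + y3 * y12 + y6 * y9 + y7 * y13))
    (N := 16 * ((y2 * y7 - y3 * y6) * (y8 * y13 - y9 * y12))) hq h3 hτ hY hy hX hx (by ring) (by ring)
    (by ring) with e | ⟨-, e⟩ | e
  · exact (c0 (cz hy hx (mul_inv_eq_iff_eq_mul.1 e) fun f => h.four_ne (by linear_combination f))).elim
  · exact Or.inl e
  · exact Or.inr e

theorem S2.kl (hX : X3 P x) (hx : ph B x.1 = mx a1 a2 0 0 a3 a4 0 0 0 0 b1 b2 0 0 b3 b4)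
    (hr : -2 * r = (y0 - a1) ^ 2 + (y5 - a4) ^ 2 + (y10 - b1) ^ 2 + (y15 - b4) ^ 2 +
      2 * ((y1 - a2) * (y4 - a3) + (y11 - b2) * (y14 - b3) + (y2 * y8 + y3 * y12 + y6 * y9 + y7 * y13))) :
    r = 0 ∨ r = 6 ∨ ∃ N, Ix τ r N := by
  have key : ∀ r' N', Inv2 (1 + T (y * x)) r' N' → r = r' := fun r' N' e => by
    obtain ⟨e1, -⟩ := e.mat (B := B) (D := mx (y0 - a1) (y1 - a2) y2 y3 (y4 - a3) (y5 - a4) y6 y7 y8 y9
      (y10 - b1) (y11 - b2) y12 y13 (y14 - b3) (y15 - b4)) hY.2.1 hX.2.1 (by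
        rw [hx, hy]; mxs; simp)
    mxs at e1
    exact mul_left_cancel₀ h.two (by linear_combination -e1 - hr)
  rcases h.pd hq h3 hτ hY hX with e | e | ⟨r', N', e, f⟩
  · refine Or.inl (key 0 0 ?_)
    rw [F_eq hY.2.1 hX.2.1, e]; simp [Inv2]
  · refine Or.inr (Or.inl (key 6 9 ?_))
    rw [e, mul_inv_cancel, T_one, show (1 : End k V) + (2 : k) • 1 = (3 : k) • 1 by module]
    constructor <;> simp [h.dim] <;> ring
  · obtain rfl := key _ _ e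
    exact Or.inr (Or.inr ⟨_, f⟩)

end

end Cfsg.Agent.H6.L4
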