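import Cfsg.Agent.H6.L4.Q4

/-! `SL_2(3) × 1` does not occur. -/

set_option autoImplicit false
set_option linter.unusedSimpArgs false
set_option linter.unusedSectionVars false
set_option linter.unusedVariables false

namespace Cfsg.Agent.H6.L4

open Module Cfsg.Agent.H8.M3 Matrix
open Cfsg.Agent.H6.S4 hiding St S2 X3 Quad Pair3 Beta
open Q (In L9 L8 L5 ev)
open H9.C2 (mx M4 mx_mul mx_add mx_smul mx_one mx_zero mx_trace mx_inj)

universe u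

variable {k V : Type*} [Field k] [AddCommGroup V] [Module k V] [FiniteDimensional k V]
  {G : Type u} [Group G] {P : Subgroup (End k V)ˣ} {π : P →* G} {p : ℕ}
  {g g' x y y' u d : (End k V)ˣ} {τ r N l : k} {B : Basis (Fin 4) k V} {U I : Submodule k V}
  {a1 a2 a3 a4 b1 b2 b3 b4 y0 y1 y2 y3 y4 y5 y6 y7 y8 y9 y10 y11 y12 y13 y14 y15 : k}

theorem In_mono {L L' : List Q.En} (h : In τ L r N) (e : ∀ x ∈ L, x ∈ L') : In τ L' r N :=
  let ⟨x, hx, h⟩ := h; ⟨x, e x hx, h⟩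

theorem Ix.a (h : Ix τ r N) : In τ (L9 ++ L8) r N :=
  h.elim (In_mono · (by decide)) (In_mono ·.2 (by decide))

theorem Ix.b (h : Ix τ r N) (e : (5 : k) = 0) : In τ L9 r N := h.resolve_right fun f => f.1 e

theorem ixz {L : List Q.En} (h : (r = 6 ∧ N = 9) ∨ In τ L r N) : In τ (((6, 0), (9, 0)) :: L) r N :=
  h.elim (fun e => ⟨((6, 0), (9, 0)), by simp, by simp [ev, e.1], by simp [ev, e.2]⟩)
    (In_mono · fun _ => List.mem_cons_of_mem _)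

theorem ixa (h : r = 0 ∨ r = 6 ∨ ∃ N, Ix τ r N) :
    ∃ N, In τ (((0, 0), (0, 0)) :: ((6, 0), (9, 0)) :: (L9 ++ L8)) r N := by
  rcases h with rfl | rfl | ⟨N, h⟩
  exacts [⟨_, ((0, 0), (0, 0)), by decide, by simp [ev], rfl⟩,
    ⟨_, ((6, 0), (9, 0)), by decide, by simp [ev], rfl⟩, ⟨N, In_mono h.a (by decide)⟩]

theorem ixb (h : r = 0 ∨ r = 6 ∨ ∃ N, Ix τ r N) (e : (5 : k) = 0) : ∃ N, In τ L5 r N := by
  have : r = 0 ∨ r = 1 ∨ r = 2 ∨ r = 3 ∨ r = 4 := by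
    rcases h with rfl | rfl | ⟨N, h⟩
    · simp
    · simp [show (6 : k) = 1 by linear_combination e]
    obtain ⟨x, hx, rfl, -⟩ := h.b e
    simp only [L9, List.mem_cons, List.not_mem_nil, or_false] at hx
    rcases hx with rfl | rfl | rfl | rfl | rfl | rfl | rfl | rfl | rfl <;> simp [ev, e]
  rcases this with rfl | rfl | rfl | rfl | rfl
  exacts [⟨_, ((0, 0), (0, 0)), by decide, by simp [ev], rfl⟩,
    ⟨_, ((1, 0), (0, 0)), by decide, by simp [ev], rfl⟩,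
    ⟨_, ((2, 0), (0, 0)), by decide, by simp [ev], rfl⟩,
    ⟨_, ((3, 0), (0, 0)), by decide, by simp [ev], rfl⟩,
    ⟨_, ((4, 0), (0, 0)), by decide, by simp [ev], rfl⟩]

theorem blk_conj {o1 o2 o3 o4 c1 c2 c3 c4 : k} (hX : X3 P x)
    (hx : ph B x.1 = mx o1 o2 0 0 o3 o4 0 0 0 0 b1 b2 0 0 b3 b4) (hq : HP P B a1 a2 a3 a4)
    (hd : a1 * a4 - a2 * a3 = 1)
    (e : c1 = (a1 * o1 + a2 * o3) * a4 - (a1 * o2 + a2 * o4) * a3 ∧
      c2 = (a1 * o2 + a2 * o4) * a1 - (a1 * o1 + a2 * o3) * a2 ∧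
      c3 = (a3 * o1 + a4 * o3) * a4 - (a3 * o2 + a4 * o4) * a3 ∧
      c4 = (a3 * o2 + a4 * o4) * a1 - (a3 * o1 + a4 * o3) * a2) :
    ∃ x', X3 P x' ∧ ph B x'.1 = mx c1 c2 0 0 c3 c4 0 0 0 0 b1 b2 0 0 b3 b4 := by
  obtain ⟨q, hQ, hq⟩ := hq
  have hi := ph_inv (M' := mx a4 (-a2) 0 0 (-a3) a1 0 0 0 0 1 0 0 0 0 1) hq (by
    mxs; exact ⟨by linear_combination hd, by ring, by ring, by linear_combination hd⟩)
  obtain ⟨rfl, rfl, rfl, rfl⟩ := e
  refine ⟨_, hX.conj hQ, ?_⟩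
  simp only [Units.val_mul, map_mul, hx, hq, hi]
  mxs
  refine ⟨?_, ?_, ?_, ?_⟩ <;> ring

theorem ph_col (B : Basis (Fin 4) k V) (f : End k V) (j : Fin 4) :
    f (B j) = ph B f 0 j • B 0 + ph B f 1 j • B 1 + ph B f 2 j • B 2 + ph B f 3 j • B 3 := by
  have := B.sum_repr (f (B j))
  rw [Fin.sum_univ_four] at this
  simpa only [ph, LinearMap.toMatrixAlgEquiv_apply] using this.symm

theorem ph_of {f : End k V} (h0 : f (B 0) = a1 • B 0 + a3 • B 1) (h1 : f (B 1) = a2 • B 0 + a4 • B 1)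
    (h2 : f (B 2) = b1 • B 2 + b3 • B 3) (h3 : f (B 3) = b2 • B 2 + b4 • B 3) :
    ph B f = mx a1 a2 0 0 a3 a4 0 0 0 0 b1 b2 0 0 b3 b4 := by
  ext i j
  fin_cases i <;> fin_cases j <;> simp [ph, LinearMap.toMatrixAlgEquiv_apply, mx, h0, h1, h2, h3]

theorem HP.conj {o1 o2 o3 o4 c1 c2 c3 c4 : k} (hq : HP P B a1 a2 a3 a4) (hX : x ∈ P)
    (hx : ph B x.1 = mx o1 o2 0 0 o3 o4 0 0 0 0 b1 b2 0 0 b3 b4)
    (e : o1 * a1 + o2 * a3 = c1 * o1 + c2 * o3 ∧ o1 * a2 + o2 * a4 = c1 * o2 + c2 * o4 ∧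
      o3 * a1 + o4 * a3 = c3 * o1 + c4 * o3 ∧ o3 * a2 + o4 * a4 = c3 * o2 + c4 * o4) :
    HP P B c1 c2 c3 c4 := by
  obtain ⟨q, hQ, hq⟩ := hq
  refine ⟨x * q * x⁻¹, P.mul_mem (P.mul_mem hX hQ) (P.inv_mem hX), ?_⟩
  have : ph B x.1 * ph B q.1 = mx c1 c2 0 0 c3 c4 0 0 0 0 1 0 0 0 0 1 * ph B x.1 := by
    rw [hx, hq]; mxs; exact e
  rw [Units.val_mul, Units.val_mul, map_mul, map_mul, this, mul_assoc, ← map_mul, Units.mul_inv,
    map_one, mul_one]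

variable [Fact p.Prime] [CharP k p] [IsAlgClosed k]

set_option maxHeartbeats 4000000 in
theorem S2.fixU (h : S2 p P π) (hq : Quad P) (p3 : p ≠ 3) (hl : l ^ 2 + l + 1 = 0)
    (H1 : HP P B l (-l) 0 (-1 - l)) (H2 : HP P B 0 (-1) 1 (-1)) (hX : X3 P x)
    (hx : ph B x.1 = mx l (-l) 0 0 0 (-1 - l) 0 0 0 0 b1 b2 0 0 b3 b4) (hY : X3 P y)
    (hy : ph B y.1 = mx y0 y1 y2 y3 y4 y5 y6 y7 y8 y9 y10 y11 y12 y13 y14 y15) :
    y8 = 0 ∧ y9 = 0 ∧ y12 = 0 ∧ y13 = 0 := by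
  by_contra c0
  have h2 := h.two
  have h3 : (3 : k) ≠ 0 := fun e => p3 ((Nat.prime_dvd_prime_iff_eq Fact.out Nat.prime_three).1
    ((CharP.cast_eq_zero_iff k p 3).1 (by simpa using e)))
  obtain ⟨τ, hτ⟩ : ∃ τ : k, τ ^ 2 = τ + 1 := by
    obtain ⟨s, hs⟩ := IsAlgClosed.exists_eq_mul_self (5 : k)
    exact ⟨(1 + s) / 2, by field_simp; linear_combination -hs⟩
  have gg : HP P B (-1 - l) l 0 l := H1.mul H1 (by clear * - hl; gr)
  have gh : HP P B (-l) 0 (-1 - l) (1 + l) := H1.mul H2 (by clear * - hl; gr)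
  have q1 : HP P B l 1 l (-l) := gg.mul H2 (by clear * - hl; gr)
  have q2 : HP P B (1 + l) (-1 - l) 1 (-1 - l) := gh.mul H1 (by clear * - hl; gr)
  have q3 : HP P B 0 (-l) (-1 - l) 0 := H2.mul gg (by clear * - hl; gr)
  have z : HP P B (-1) 0 0 (-1) := q1.mul q1 (by clear * - hl; gr)
  have o2 : HP P B (-1 - l) 0 (-1 - l) l := q1.mul H1 (by clear * - hl; gr)
  have o3 : HP P B (-1) (1 + l) l 0 := q2.mul H1 (by clear * - hl; gr)
  have n1 : HP P B (-l) l 0 (1 + l) := z.mul H1 (by clear * - hl; gr)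
  have n2 : HP P B (1 + l) 0 (1 + l) (-l) := z.mul o2 (by clear * - hl; gr)
  have n3 : HP P B 1 (-1 - l) (-l) 0 := z.mul o3 (by clear * - hl; gr)
  have n4 : HP P B 0 1 (-1) 1 := z.mul H2 (by clear * - hl; gr)
  obtain ⟨x1, X1, e1⟩ := blk_conj (c1 := -1) (c2 := 1 + l) (c3 := l) (c4 := 0) hX hx q1 (by clear * - hl; gr) (by clear * - hl; gr)
  obtain ⟨x2, X2, e2⟩ := blk_conj (c1 := 0) (c2 := -1) (c3 := 1) (c4 := -1) hX hx q2 (by clear * - hl; gr) (by clear * - hl; gr)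
  obtain ⟨x3, X3', e3⟩ := blk_conj (c1 := -1 - l) (c2 := 0) (c3 := -1 - l) (c4 := l) hX hx q3 (by clear * - hl; gr)
    (by clear * - hl; gr)
  obtain ⟨t, a, b, c, rfl, rfl, rfl, rfl⟩ : ∃ t a b c : k, y0 = t + a * l + b * (1 + l) ∧
      y1 = a - b * (1 + l) - c * l ∧ y4 = a * l + b - c * (1 + l) ∧ y5 = t - a * l - b * (1 + l) := by
    obtain ⟨i, hi⟩ : ∃ i : k, 2 * i = 1 := ⟨2⁻¹, mul_inv_cancel₀ h2⟩
    exact ⟨(y0 + y5) * i, -(y0 * l + y1 * l + y4 - y5 * l) * i,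
      -(y0 * (1 + l) + y1 - y4 * (1 + l) - y5 * (1 + l)) * i, (y1 * (1 + l) + y4 * l) * i,
      by clear * - hl hi; gr⟩
  have sq := congrArg (ph B) (sq_of_T hY.2.1)
  rw [map_mul, map_sub, map_smul, map_one, hy, eq_sub_iff_add_eq] at sq
  mxs at sq
  obtain ⟨s0, s1, -, -, s4, s5, -⟩ := sq
  obtain ⟨m, hm⟩ : ∃ m, m = y2 * y8 + y3 * y12 + y6 * y9 + y7 * y13 := ⟨_, rfl⟩
  obtain ⟨X, hX'⟩ : ∃ X, X = (y2 * y7 - y3 * y6) * (y8 * y13 - y9 * y12) := ⟨_, rfl⟩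
  obtain ⟨S, hS⟩ : ∃ S, S = a ^ 2 + b ^ 2 + c ^ 2 := ⟨_, rfl⟩
  have em : m = -2 * (t ^ 2 + t + 1 - S) := by clear * - hl hm hS s0 s5; gr
  have eX : X = (t ^ 2 + t + 1 - S) ^ 2 + (2 * t + 1) ^ 2 * S := by
    rw [show X = (y2 * y8 + y3 * y12) * (y6 * y9 + y7 * y13) -
      (y2 * y9 + y3 * y13) * (y6 * y8 + y7 * y12) by rw [hX']; ring,
      show y2 * y8 + y3 * y12 = -(t ^ 2 + t + 1 - S) - (2 * t + 1) * (a * l + b * (1 + l)) by
        clear * - hl hS s0; gr,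
      show y6 * y9 + y7 * y13 = -(t ^ 2 + t + 1 - S) + (2 * t + 1) * (a * l + b * (1 + l)) by
        clear * - hl hS s5; gr,
      show y2 * y9 + y3 * y13 = -(2 * t + 1) * (a - b * (1 + l) - c * l) by clear * - hl s1; gr,
      show y6 * y8 + y7 * y12 = -(2 * t + 1) * (a * l + b - c * (1 + l)) by clear * - hl s4; gr]
    clear * - hl hS; gr
  have R4 : 16 * X = (8 * S - 2 * m - 3) ^ 2 - 12 * m - 9 := by rw [em, eX]; ring
  obtain ⟨w, hw⟩ : ∃ w : k, -2 * w = 2 * t ^ 2 - 2 * S + 2 * t - 1 + (y10 - b1) ^ 2 + (y15 - b4) ^ 2 +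
      2 * ((y11 - b2) * (y14 - b3) + m) := ⟨_, mul_div_cancel₀ _ (by simpa using h2)⟩
  have kz := h.kz hq h3 hτ hY hy c0 z
  rw [← hm, ← hX'] at kz
  have k1 := h.kc (r := 2 * S - 2 * (a * b + b * c + c * a) - 3 * m) (N := 9 * X) hq h3 hτ hY hy c0 H1
    (by clear * - hl; gr) (by right; ring) (by clear * - hl hm hS; gr) (by rw [hX']; ring)
  have k2 := h.kc (r := 2 * S - 2 * (a * b - b * c - c * a) - 3 * m) (N := 9 * X) hq h3 hτ hY hy c0 o2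
    (by clear * - hl; gr) (by right; ring) (by clear * - hl hm hS; gr) (by rw [hX']; ring)
  have k3 := h.kc (r := 2 * S - 2 * (-a * b + b * c - c * a) - 3 * m) (N := 9 * X) hq h3 hτ hY hy c0 o3
    (by clear * - hl; gr) (by right; ring) (by clear * - hl hm hS; gr) (by rw [hX']; ring)
  have k4 := h.kc (r := 2 * S - 2 * (-a * b - b * c + c * a) - 3 * m) (N := 9 * X) hq h3 hτ hY hy c0 H2
    (by clear * - hl; gr) (by right; ring) (by clear * - hl hm hS; gr) (by rw [hX']; ring)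
  have j1 := h.kc (r := 2 * S - 2 * (a * b + b * c + c * a) - m) (N := X) hq h3 hτ hY hy c0 n1
    (by clear * - hl; gr) (by right; ring) (by clear * - hl hm hS; gr) (by rw [hX']; ring)
  have j2 := h.kc (r := 2 * S - 2 * (a * b - b * c - c * a) - m) (N := X) hq h3 hτ hY hy c0 n2
    (by clear * - hl; gr) (by right; ring) (by clear * - hl hm hS; gr) (by rw [hX']; ring)
  have j3 := h.kc (r := 2 * S - 2 * (-a * b + b * c - c * a) - m) (N := X) hq h3 hτ hY hy c0 n3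
    (by clear * - hl; gr) (by right; ring) (by clear * - hl hm hS; gr) (by rw [hX']; ring)
  have j4 := h.kc (r := 2 * S - 2 * (-a * b - b * c + c * a) - m) (N := X) hq h3 hτ hY hy c0 n4
    (by clear * - hl; gr) (by right; ring) (by clear * - hl hm hS; gr) (by rw [hX']; ring)
  have i1 := h.kc (r := 4 * S - 4 * a ^ 2 - 2 * m) (N := 4 * X) hq h3 hτ hY hy c0 q1
    (by clear * - hl; gr) (by left; ring) (by clear * - hl hm hS; gr) (by rw [hX']; ring)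
  have i2 := h.kc (r := 4 * S - 4 * b ^ 2 - 2 * m) (N := 4 * X) hq h3 hτ hY hy c0 q2
    (by clear * - hl; gr) (by left; ring) (by clear * - hl hm hS; gr) (by rw [hX']; ring)
  have i3 := h.kc (r := 4 * S - 4 * c ^ 2 - 2 * m) (N := 4 * X) hq h3 hτ hY hy c0 q3
    (by clear * - hl; gr) (by left; ring) (by clear * - hl hm hS; gr) (by rw [hX']; ring)
  have l0 := h.kl (r := w - (a + b + c)) hq h3 hτ hY hy hX hx (by clear * - hl hm hS hw; gr)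
  have l1 := h.kl (r := w - (a - b - c)) hq h3 hτ hY hy X1 e1 (by clear * - hl hm hS hw; gr)
  have l2 := h.kl (r := w - (-a + b - c)) hq h3 hτ hY hy X2 e2 (by clear * - hl hm hS hw; gr)
  have l3 := h.kl (r := w - (-a - b + c)) hq h3 hτ hY hy X3' e3 (by clear * - hl hm hS hw; gr)
  have fin : (5 : k) = 0 ∧ a = 0 ∧ b = 0 ∧ c = 0 ∧ X = 4 ∧ m = 1 := by
    by_cases e : (5 : k) = 0
    · exact Q.alg hτ h2 (by
        rw [Nat.cast_pow, show ((6 : ℕ) : k) = 2 * 3 by norm_num]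
        exact pow_ne_zero _ (mul_ne_zero h2 h3)) Q.run5 (by simpa [ev] using e) hS
        (ixz (kz.imp id (·.b e))) (k1.b e) (k2.b e) (k3.b e) (k4.b e) (j1.b e) (j2.b e) (j3.b e) (j4.b e)
        (i1.b e) (i2.b e) (i3.b e) R4 (ixb l0 e) (ixb l1 e) (ixb l2 e) (ixb l3 e)
    · exact Q.alg hτ h2 (by
        rw [Nat.cast_pow, show ((30 : ℕ) : k) = 2 * 3 * 5 by norm_num]
        exact pow_ne_zero _ (mul_ne_zero (mul_ne_zero h2 h3) e)) Q.run7 (by simp [ev]) hS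
        (ixz (kz.imp id (·.a))) k1.a k2.a k3.a k4.a j1.a j2.a j3.a j4.a i1.a i2.a i3.a R4 (ixa l0)
        (ixa l1) (ixa l2) (ixa l3)
  obtain ⟨e5, rfl, rfl, rfl, f1, f2⟩ := fin
  have u0 : y2 * y8 + y3 * y12 = 3 := by clear * - hS em s0 e5 f2; gr
  have u5 : y6 * y9 + y7 * y13 = 3 := by clear * - hS em s5 e5 f2; gr
  have u1 : y2 * y9 + y3 * y13 = 0 := by clear * - s1; gr
  have u4 : y6 * y8 + y7 * y12 = 0 := by clear * - s4; gr
  have v : y8 * y2 + y9 * y6 = 3 ∧ y8 * y3 + y9 * y7 = 0 ∧ y12 * y2 + y13 * y6 = 0 ∧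
      y12 * y3 + y13 * y7 = 3 := by
    rw [hX'] at f1
    clear * - u0 u1 u4 u5 f1 e5; gr
  obtain ⟨v1, v2, v3, v4⟩ := v
  obtain ⟨q, hQ, hq⟩ := q1
  have Y' := hY.conj hQ
  have e := F_eq hY.2.1 Y'.2.1
  rw [show (y.1 - (q * y * q⁻¹).1) * (y.1 - (q * y * q⁻¹).1) = 1 from (ph B).injective (by
    rw [map_mul, map_sub, ph_conj hy hq (by clear * - hl; gr), add_sub_cancel_right, map_one]
    mxs
    clear * - hl u0 u1 u4 u5 v1 v2 v3 v4 e5; gr)] at e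
  have e' : T (-(y * (q * y * q⁻¹))) = (2 : k) • 1 := by
    rw [T_neg]; linear_combination (norm := module) -e
  have := by_contra fun n => p3 (h.p3 (h.neg (P.mul_mem hY.1 Y'.1)) e' n)
  have f := Y'.2.1
  rw [show q * y * q⁻¹ = -y⁻¹ by
    rw [← inv_mul_cancel_left y (q * y * q⁻¹), neg_eq_iff_eq_neg.1 this]; simp, T_neg, T_inv,
    hY.2.1, ← neg_smul] at f
  exact h2 (by linear_combination h.sc' f)

theorem S2.noL (h : S2 p P π) (hq : Quad P) (p3 : p ≠ 3) (hc : Cp U I) (hg : X3 P g) (hg' : X3 P g')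
    (A : PU U g g' (-1) 1) (gI : g ∈ sU I) (gI' : g' ∈ sU I) (hd : d ∈ P)
    (d1 : ∀ v ∈ U, d.1 v = -g.1 (g'.1 v)) (d2 : ∀ v ∈ I, d.1 v = v) : False := by
  obtain ⟨v0, hv0, n0⟩ := ne2 hc.d1
  obtain ⟨l, v, hv, v0, gv⟩ := exists_eigv A.u1 A.t1 hv0 n0
  obtain ⟨l0, -⟩ := inv_eig v0 gv
  have e1 : l + l⁻¹ = -1 := smul_left_injective k v0 ((T_eig v0 gv).symm.trans (A.t1 v hv))
  have e2 := mul_inv_cancel₀ l0
  have hl : l ^ 2 + l + 1 = 0 := by linear_combination l * e1 - e2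
  have vw : ∀ c : k, g'.1 v ≠ c • v := fun c f => noc hg.2.1 hg'.2.1 (ρ := 1)
    (fun e => one_ne_zero (α := k) (by linear_combination -e))
    (fun e => h.two (by linear_combination e)) (A.t3 v hv) v0 gv f
  have hw := (A.u2 v hv).1
  have gw' : g.1 (g'.1 v) = (-l) • v + (-1 - l) • g'.1 v := by
    rw [gw hg.2.1 hg'.2.1 e2 e1 (A.t3 v hv) gv, show l⁻¹ = -1 - l by linear_combination e1]
    module
  have ww : g'.1 (g'.1 v) = (-1 : k) • v + (-1 : k) • g'.1 v := by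
    have := LinearMap.congr_fun (sq_of_T hg'.2.1) v
    simp only [End.mul_apply, LinearMap.sub_apply, LinearMap.smul_apply, End.one_apply] at this
    linear_combination (norm := module) this
  obtain ⟨a, ha, a0⟩ := ne2 hc.d2
  obtain ⟨b, hb, ab⟩ := basis2 hc.d2 a0
  obtain ⟨b1, b3, f1⟩ := span2 hc.d2 ha hb a0 ab (gI a ha).1
  obtain ⟨b2, b4, f2⟩ := span2 hc.d2 ha hb a0 ab (gI b hb).1
  obtain ⟨c1, c3, f3⟩ := span2 hc.d2 ha hb a0 ab (gI' a ha).1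
  obtain ⟨c2, c4, f4⟩ := span2 hc.d2 ha hb a0 ab (gI' b hb).1
  obtain ⟨B, B0, B1, rfl, rfl⟩ := hc.bas h.dim hv hw v0 vw ha hb a0 ab
  have m1 := ph_of (B := B) (f := g.1) (a1 := l) (a3 := 0) (by simp [B0, gv]) (by rw [B0, B1, gw']) f1 f2
  have m2 := ph_of (B := B) (f := g'.1) (a1 := 0) (a3 := 1) (by simp [B0, B1]) (by rw [B0, B1, ww]) f3 f4
  have D : HP P B l 0 (1 + l) (-1 - l) := ⟨d, hd, ph_of (by rw [B0, B1, d1 v hv, gw']; module)
    (by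
      rw [B0, B1, d1 _ hw, ww, map_add, map_smul, map_smul, gv, gw']; module)
    (by simp [d2 _ ha]) (by simp [d2 _ hb])⟩
  have D2 : HP P B (-1 - l) 0 (-1 - l) l := D.mul D (by clear * - hl; gr)
  have H2 : HP P B 0 (-1) 1 (-1) := D2.conj hg.1 m1 (by clear * - hl; gr)
  have H1 : HP P B l (-l) 0 (-1 - l) := HP.conj (a1 := -1) (a2 := 1 + l) (a3 := l) (a4 := 0)
    (D2.conj hg'.1 m2 (by clear * - hl; gr)) hg'.1 m2 (by clear * - hl; gr)
  have := h.irr U (h.ind (X := {y | X3 P y}) (fun _ e => e.1) (fun _ a _ e => e.conj a) hg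
    (hg.nsc h.toSt) (fun y => ∀ v ∈ U, y.1 v ∈ U) (fun y _ ⟨c, e⟩ z hz => by
      simpa [e] using U.smul_mem c hz) (fun _ _ _ _ s t z hz => s _ (t z hz)) fun y hY z hz => by
    obtain ⟨y0, y1, y2, y3, y4, y5, y6, y7, y8, y9, y10, y11, y12, y13, y14, y15, hy⟩ :=
      H9.C2.ex (ph B y.1)
    obtain ⟨rfl, rfl, rfl, rfl⟩ := h.fixU hq p3 hl H1 H2 hg m1 hY hy
    obtain ⟨s, t, rfl⟩ := span2 hc.d1 hv hw v0 vw hz
    have k0 := ph_col B y.1 0
    have k1 := ph_col B y.1 1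
    rw [hy, B0, B1] at k0 k1
    rw [map_add, map_smul, map_smul, k0, k1]
    mxs
    simp only [zero_smul, add_zero]
    exact U.add_mem (U.smul_mem _ (U.add_mem (U.smul_mem _ hv) (U.smul_mem _ hw)))
      (U.smul_mem _ (U.add_mem (U.smul_mem _ hv) (U.smul_mem _ hw))))
  have e := hc.d1
  rcases this with rfl | rfl
  · simp at e
  · rw [finrank_top, h.dim] at e; omega

end Cfsg.Agent.H6.L4
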