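import Cfsg.Agent.H6.L4.Q5

/-! The possible pairs of quadratic elements of order three. -/

set_option autoImplicit false
set_option linter.unusedSimpArgs false
set_option linter.unusedSectionVars false
set_option linter.unusedVariables false

namespace Cfsg.Agent.H6.L4

open Module Cfsg.Agent.H8.M3 Matrix
open Cfsg.Agent.H6.S4 hiding St S2 X3 Quad Pair3 Beta

universe u

variable {k V : Type*} [Field k] [AddCommGroup V] [Module k V] [FiniteDimensional k V]
  {G : Type u} [Group G] {P : Subgroup (End k V)ˣ} {π : P →* G} {p : ℕ}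
  {g g' x y d : (End k V)ˣ} {t a b : k} {U I : Submodule k V} {n : ℕ}

/-- powers on an invariant plane -/
def PW (U : Submodule k V) (x : (End k V)ˣ) (n : ℕ) (a b : k) : Prop :=
  ∀ v ∈ U, (x ^ n).1 v = a • x.1 v + b • v

theorem pw1 (U : Submodule k V) (x : (End k V)ˣ) : PW U x 1 1 0 := fun v _ => by simp

theorem Tr.sq' (hx : x ∈ sU U) (h : Tr U x t) {v : V} (hv : v ∈ U) : x.1 (x.1 v) = t • x.1 v - v := by
  have := h _ (hx v hv).1
  simp only [T, LinearMap.add_apply, ui] at this
  linear_combination (norm := module) this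

theorem PW.step (e : PW U x n a b) (hx : x ∈ sU U) (h : Tr U x t) : PW U x (n + 1) (a * t + b) (-a) :=
  fun v hv => by
    rw [pow_succ', um, e v hv, map_add, map_smul, map_smul, Tr.sq' hx h hv]; module

theorem St.tvI (h : St P π) (hc : Cp U I) (hd : d ∈ P) (dU : d ∈ sU U) (h1 : Tr U d 2)
    (h2 : ∀ v ∈ I, d.1 v = v) : d = 1 := by
  obtain ⟨u, hu, u0, e⟩ : ∃ u ∈ U, u ≠ 0 ∧ d.1 u = u := by
    obtain ⟨v, hv, v0⟩ := ne2 hc.d1
    by_cases e : d.1 v - v = 0
    exacts [⟨v, hv, v0, sub_eq_zero.1 e⟩, ⟨_, U.sub_mem (dU v hv).1 hv, e, Tr.fix2 h1 dU hv⟩]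
  have : I < LinearMap.ker (d.1 - 1) := lt_of_le_of_ne (fun v hv => by simp [h2 v hv]) fun f =>
    u0 (hc.dj u hu (by rw [f]; simp [e]))
  have := Submodule.finrank_lt_finrank_of_lt this
  exact h.tv3 hd (K := LinearMap.ker (d.1 - 1)) (by have := hc.d2; omega)
    fun v hv => by simpa [sub_eq_zero] using hv

theorem fixI (h3 : (3 : k) ≠ 0) (hg : X3 P g) (hg' : X3 P g') (B : PU I g g' (-1) 2)
    (c : ∀ v ∈ I, g.1 (g'.1 v) = g'.1 (g.1 v)) : ∀ v ∈ I, (g * g').1 v = v := fun v hv => by
  have m := (sU I).mul_mem B.u1 B.u2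
  have e := (((pw1 I (g * g')).step m B.t3).step m B.t3) v hv
  have m1 := fun v hv => (B.u1 v hv).1
  have m2 := fun v hv => (B.u2 v hv).1
  have c1 : ∀ v, g.1 (g.1 (g.1 v)) = v := fun v => LinearMap.congr_fun (congrArg Units.val hg.cube) v
  have c2 : ∀ v, g'.1 (g'.1 (g'.1 v)) = v := fun v =>
    LinearMap.congr_fun (congrArg Units.val hg'.cube) v
  have : ((g * g') ^ (1 + 1 + 1)).1 v = v := by
    change g.1 (g'.1 (g.1 (g'.1 (g.1 (g'.1 v))))) = v
    rw [← c _ (m2 _ hv), ← c _ (m1 _ (m2 _ (m2 _ hv))), ← c _ (m2 _ (m2 _ hv)), c1, c2]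
  rw [this] at e
  exact smul_right_injective V h3 (by linear_combination (norm := module) -e)

variable [Fact p.Prime] [CharP k p] [IsAlgClosed k]

theorem S2.bad (h : S2 p P π) (hq : Quad P) (hc : Cp U I) (hg : X3 P g) (hg' : X3 P g')
    (A : PU U g g' (-1) 1) (B : PU I g g' (-1) t)
    (ht : t = 0 ∨ t ^ 2 = t + 1 ∨ ∀ v ∈ I, (g * g').1 v = v) : False := by
  have o : (1 : k) ≠ 0 := one_ne_zero
  have m := (sU U).mul_mem A.u1 A.u2
  have m' := (sU I).mul_mem B.u1 B.u2
  have hx := P.mul_mem hg.1 hg'.1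
  by_cases p3 : p = 3
  · have e3 : (3 : k) = 0 := by simpa [p3] using CharP.cast_eq_zero k p
    have A' : PU U g g' (-1) (-2) := by rwa [show (-2 : k) = 1 by linear_combination -e3]
    rcases ht with rfl | ht | ht
    · exact h.nneg p hc hg.1 hg'.1 A' B fun e => h.four_ne (by linear_combination -e)
    · exact h.nneg p hc hg.1 hg'.1 A' B fun e => o (by
        linear_combination 2 * (e - (t + 3) * (e - ht)) - 3 * e3)
    have e := h.tvI hc (P.mul_mem hx hx) ((sU U).mul_mem m m)
      ((Tr.sq m A.t3).congr rfl (by linear_combination -e3)) fun v hv => by rw [um, ht v hv, ht v hv]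
    obtain ⟨v, hv, v0⟩ := ne2 hc.d1
    have f : ∀ v ∈ U, g'.1 v = -g⁻¹.1 v := fun v hv => by
      have a1 := Tr.sq' m A.t3 hv
      rw [← um (g * g'), e] at a1
      have := congrArg g⁻¹.1 a1
      simp only [Units.val_one, End.one_apply, one_smul, map_sub, um, ui] at this
      linear_combination (norm := module) e3 • g⁻¹.1 v - this
    have f' : g'⁻¹.1 v = -g.1 v := by
      have := congrArg g'⁻¹.1 (f _ (A.u1 v hv).1)
      rw [ui, ui, map_neg] at this
      rw [this, neg_neg]
    have a1 := A.t1 v hv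
    have a2 := A.t2 v hv
    simp only [T, LinearMap.add_apply, f v hv, f'] at a1 a2
    exact h.two (smul_left_injective k v0 (by linear_combination (norm := module) a1 + a2))
  have u4 := (((pw1 U (g * g')).step m A.t3).step m A.t3).step m A.t3
  have i4 := (((pw1 I (g * g')).step m' B.t3).step m' B.t3).step m' B.t3
  rcases ht with rfl | ht | ht
  · exact h.noL hq p3 hc hg hg' A B.u1 B.u2 (P.pow_mem hx _) (fun v hv => by
      rw [u4 v hv, um]; module) fun v hv => by rw [i4 v hv]; module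
  · have u10 := (((((u4.step m A.t3).step m A.t3).step m A.t3).step m A.t3).step m A.t3).step m A.t3
    have i5 : ∀ v ∈ I, ((g * g') ^ 5).1 v = -v := fun v hv => by
      rw [i4.step m' B.t3 v hv]
      linear_combination (norm := module) ((t ^ 2 + t - 1) * ht) • (g * g').1 v - ((t + 1) * ht) • v
    exact h.noL hq p3 hc hg hg' A B.u1 B.u2 (P.pow_mem hx _) (fun v hv => by
      rw [u10 v hv, um]; module) fun v hv => by
        rw [show 1 + 1 + 1 + 1 + 1 + 1 + 1 + 1 + 1 + 1 = 5 + 5 from rfl, pow_add, um, i5 v hv, map_neg,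
          i5 v hv, neg_neg]
  · exact h.noL hq p3 hc hg hg' A B.u1 B.u2 (P.pow_mem hx _) (fun v hv => by
      rw [u4 v hv, um]; module) fun v hv => by
        rw [pow_succ, um, ht v hv, pow_succ, um, ht v hv, pow_succ, um, ht v hv, pow_one, ht v hv]

theorem S2.pair3 (h : S2 p P π) (hq : Quad P) : Pair3 P := fun g g' hg hg' => by
  have o : (1 : k) ≠ 0 := one_ne_zero
  have hx := P.mul_mem hg.1 hg'.1
  rcases h.pair_cases hg.1 hg'.1 hg.2.1 hg'.2.1 (by simp) with
    c | ⟨ρ, i, c | ⟨rfl, -, rfl, n, c⟩ | ⟨ρ', ne, c, i'⟩⟩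
  · exact Or.inl c
  · rcases i.three h.two with rfl | rfl | e
    · exact Or.inr (Or.inl (by simpa using c))
    · exact Or.inr (Or.inr (Or.inl (by simpa using c)))
    rcases hq _ hx ρ c with f | f | f
    · exact absurd (by linear_combination (ρ - 1) * f - e) o
    · obtain rfl : ρ = 0 := by linear_combination f - e
      simp at f
    obtain rfl : ρ = 3 := by linear_combination f - e
    have := by_contra fun n => h.two (by
      obtain rfl := h.p3 (h.neg hx) (by
        rw [T_neg, c]; linear_combination (norm := module) (-f) • (1 : End k V)) n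
      have e3 : (3 : k) = 0 := by simpa using CharP.cast_eq_zero k 3
      linear_combination f - e3)
    left
    rw [show g' = -g⁻¹ by rw [← inv_mul_cancel_left g g', neg_eq_iff_eq_neg.1 this]; simp]
    simp
  · have e5 : (5 : k) = 0 := by simpa using CharP.cast_eq_zero k 5
    refine Or.inr (Or.inr (Or.inr ⟨fun s e => n ?_, Or.inl ?_⟩))
    · rw [e, ← sub_smul, smul_mul_smul_comm, mul_one, ← zero_smul k (1 : End k V)] at c
      rw [e, show s = -2 by linear_combination mul_self_eq_zero.1 (h.sc' c)]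
    · simp only [nc k V] at c
      linear_combination (norm := module) c - e5 • (T (g * g') + 1)
  have A := PU.of hg.2.1 hg'.2.1 ρ
  have B := PU.of hg.2.1 hg'.2.1 ρ'
  refine Or.inr (Or.inr (Or.inr ⟨fun s e => ne ?_, ?_⟩))
  · obtain ⟨v, hv, v0⟩ := ne2 c.d1
    obtain ⟨w, hw, w0⟩ := ne2 c.d2
    rw [B.t3.uniq (Tr.of e _) hw w0, A.t3.uniq (Tr.of e _) hv v0]
  have ext : ∀ a b : k, ρ * ρ = a * ρ + b → ρ' * ρ' = a * ρ' + b →
      T (g * g') * T (g * g') = a • T (g * g') + b • 1 := fun a b e e' => c.ext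
    (fun v hv => by simp [A.t3 v hv, smul_smul, e, add_smul])
    fun v hv => by simp [B.t3 v hv, smul_smul, e', add_smul]
  have gi : ∀ r : k, r ^ 2 = r + 1 → (1 - r) ^ 2 = 1 - r + 1 := fun r e => by linear_combination e
  have A' := PU.inv' A
  have B' := PU.inv' B
  have r02 : ρ = 0 → ρ' = 2 → _ := fun e e' => (by simpa using ext 2 0 (by rw [e]; ring) (by
    rw [e']; ring) : T (g * g') * T (g * g') = (2 : k) • T (g * g'))
  have r11 : ρ = 1 → ρ' = -1 → _ := fun e e' => (by simpa using ext 0 1 (by rw [e]; ring) (by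
    rw [e']; ring) : T (g * g') * T (g * g') = 1)
  rcases i' with i' | ⟨j, cm⟩
  · rcases i.three h.two with rfl | rfl | e <;> rcases i'.three h.two with rfl | rfl | e'
    · exact absurd rfl ne
    · exact (h.bad hq c.symm hg hg' B A (by simp)).elim
    · exact (h.bad hq c hg hg'.inv (by simpa using A') B' (by simp [gi _ e'])).elim
    · exact (h.bad hq c hg hg' A B (by simp)).elim
    · exact absurd rfl ne
    · exact (h.bad hq c hg hg' A B (by simp [e'])).elim
    · exact (h.bad hq c.symm hg hg'.inv (by simpa using B') A' (by simp [gi _ e])).elim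
    · exact (h.bad hq c.symm hg hg' B A (by simp [e])).elim
    · exact Or.inl (by simpa using ext 1 1 (by linear_combination e) (by linear_combination e'))
  replace j : ρ' = 2 ∨ ρ' = -1 := j.imp id fun e => by linear_combination e
  rcases i.three h.two with e | e | e
  · by_cases e3 : (3 : k) = 0
    · exact Or.inr (Or.inr (r02 e (j.elim id fun f => by linear_combination f - e3)))
    rcases j with j | j
    · exact Or.inr (Or.inr (r02 e j))
    subst e j
    exact (h.bad hq c hg hg'.inv (by simpa using A') B' (Or.inr (Or.inr (fixI e3 hg hg'.inv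
      (by rwa [show (2 : k) = 1 - -1 by ring]) fun v hv => by
        simp [inv_of_T hg'.2.1, cm v hv])))).elim
  · by_cases e3 : (3 : k) = 0
    · exact Or.inr (Or.inl (r11 e (j.elim (fun f => by linear_combination f + e3) id)))
    rcases j with j | j
    · subst e j
      exact (h.bad hq c hg hg' A B (Or.inr (Or.inr (fixI e3 hg hg' B cm)))).elim
    · exact Or.inr (Or.inl (r11 e j))
  have hy := hg.conj hg'.1
  have su : ∀ W : Submodule k V, g ∈ sU W → g' ∈ sU W → g' * g * g'⁻¹ ∈ sU W := fun W a b =>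
    (sU W).mul_mem ((sU W).mul_mem b a) ((sU W).inv_mem b)
  have yI : ∀ v ∈ (T (g * g')).eigenspace ρ', (g * (g' * g * g'⁻¹)⁻¹).1 v = v := fun v hv => by
    have m := (B.u2 _ (B.u1 _ (B.u2 v hv).2).2).1
    rw [show (g' * g * g'⁻¹)⁻¹ = g' * g⁻¹ * g'⁻¹ by group, um, um, um,
      cm _ (B.u1 _ (B.u2 v hv).2).2, iu, iu]
  refine (h.bad hq c hg hy.inv (t := 2) (by
    simpa using PU.inv' (ρ := 0) ⟨A.u1, su _ A.u1 A.u2, A.t1, Tr.of hy.2.1 _,
      (Tr.acon A.u1 A.u2 A.t1 A.t2 A.t3).congr rfl (by linear_combination -e)⟩)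
    ⟨B.u1, (sU _).inv_mem (su _ B.u1 B.u2), B.t1, Tr.of hy.inv.2.1 _, fun v hv => ?_⟩
    (Or.inr (Or.inr yI))).elim
  have := congrArg (g * (g' * g * g'⁻¹)⁻¹)⁻¹.1 (yI v hv)
  rw [ui] at this
  rw [T, LinearMap.add_apply, yI v hv, ← this, two_smul]

end Cfsg.Agent.H6.L4
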